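import Cfsg.Agent.Lib.QuadMain.Conn
import Mathlib

/-!
# Semisimplicity under normal subgroups, common kernels, and finiteness of the components
-/

set_option autoImplicit false
set_option linter.unusedSectionVars false
set_option linter.unusedVariables false

namespace Cfsg.Agent.Lib.QuadMain.Cliff

open Polynomial
open Cfsg.Agent.Lib.Linalg.Quad.Dich Cfsg.Agent.Lib.Linalg.Quad.Psi Cfsg.Agent.Lib.Linalg.Quad.Root
  Cfsg.Agent.Lib.Linalg.Quad.Pair Cfsg.Agent.Lib.Linalg.Quad.NType Cfsg.Agent.Lib.Linalg.Quad.UType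
  Cfsg.Agent.Lib.Linalg.Quad.Surj Cfsg.Agent.Lib.Linalg.Quad.RootSet
open Cfsg.Agent.Lib.QuadMain.Log Cfsg.Agent.Lib.QuadMain.Decomp Cfsg.Agent.Lib.QuadMain.Cocentral
  Cfsg.Agent.Lib.QuadMain.Conn

variable {k : Type*} [Field k] {M : Type*} [AddCommGroup M] [Module k M]

/-- Invariance of a subspace. -/
def Inv (X : Subgroup (LinearMap.GeneralLinearGroup k M)) (W : Submodule k M) : Prop :=
  ∀ g ∈ X, ∀ w ∈ W, (g : M →ₗ[k] M) w ∈ W

/-- Minimal invariant subspaces. -/
structure MinInv (X : Subgroup (LinearMap.GeneralLinearGroup k M)) (W : Submodule k M) : Prop where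
  ne : W ≠ ⊥
  inv : Inv X W
  min : ∀ W' : Submodule k M, W' ≤ W → Inv X W' → W' = ⊥ ∨ W' = W

/-- `M` is the sum of its minimal invariant subspaces. -/
def SumIrr (X : Subgroup (LinearMap.GeneralLinearGroup k M)) : Prop :=
  (⨆ (W : Submodule k M) (_ : MinInv X W), W) = ⊤

/-- The translate of a subspace. -/
def tw (g : LinearMap.GeneralLinearGroup k M) (W : Submodule k M) : Submodule k M := W.map (g : M →ₗ[k] M)

lemma mem_tw {g : LinearMap.GeneralLinearGroup k M} {W : Submodule k M} {v : M} :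
    v ∈ tw g W ↔ ((g⁻¹ : LinearMap.GeneralLinearGroup k M) : M →ₗ[k] M) v ∈ W := by
  constructor
  · rintro ⟨w, hw, rfl⟩
    rwa [inv_apply_apply]
  · intro h
    exact ⟨_, h, apply_inv_apply g v⟩

lemma apply_mem_tw {g : LinearMap.GeneralLinearGroup k M} {W : Submodule k M} {v : M} (h : v ∈ W) :
    (g : M →ₗ[k] M) v ∈ tw g W := ⟨v, h, rfl⟩

lemma tw_le {g : LinearMap.GeneralLinearGroup k M} {W W' : Submodule k M} :
    tw g W ≤ W' ↔ W ≤ tw g⁻¹ W' := by
  constructor
  · intro h v hv
    rw [mem_tw, inv_inv]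
    exact h (apply_mem_tw hv)
  · intro h v hv
    rw [mem_tw] at hv
    have := h hv
    rw [mem_tw, inv_inv, apply_inv_apply] at this
    exact this

lemma tw_tw_inv (g : LinearMap.GeneralLinearGroup k M) (W : Submodule k M) : tw g (tw g⁻¹ W) = W := by
  ext v
  rw [mem_tw, mem_tw, inv_inv, apply_inv_apply]

lemma tw_inv_tw (g : LinearMap.GeneralLinearGroup k M) (W : Submodule k M) : tw g⁻¹ (tw g W) = W := by
  have := tw_tw_inv g⁻¹ W
  rwa [inv_inv] at this

lemma tw_bot (g : LinearMap.GeneralLinearGroup k M) : tw g (⊥ : Submodule k M) = ⊥ := Submodule.map_bot _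

lemma tw_ne_bot {g : LinearMap.GeneralLinearGroup k M} {W : Submodule k M} (h : W ≠ ⊥) : tw g W ≠ ⊥ := by
  intro h0
  apply h
  rw [← tw_inv_tw g W, h0, tw_bot]

/-- Translates of minimal subspaces for a normal subgroup are minimal. -/
lemma MinInv.tw {X Y : Subgroup (LinearMap.GeneralLinearGroup k M)}
    (hXY : ∀ h ∈ Y, ∀ n ∈ X, h * n * h⁻¹ ∈ X) {W : Submodule k M} (hW : MinInv X W) {h : LinearMap.GeneralLinearGroup k M}
    (hh : h ∈ Y) : MinInv X (tw h W) := by
  have key : ∀ (h : LinearMap.GeneralLinearGroup k M), h ∈ Y → ∀ W : Submodule k M, Inv X W → Inv X (Cliff.tw h W) := by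
    intro h hh W hW n hn v hv
    rw [mem_tw] at hv ⊢
    have h1 := hW _ (hXY _ (Y.inv_mem hh) n hn) _ hv
    rw [inv_inv] at h1
    simpa [Units.val_mul, Module.End.mul_apply, inv_apply_apply, apply_inv_apply] using h1
  refine ⟨tw_ne_bot hW.ne, key h hh W hW.inv, fun W' hle hinv => ?_⟩
  have h1 : Cliff.tw h⁻¹ W' ≤ W := by
    rw [tw_le, inv_inv]
    exact hle
  rcases hW.min _ h1 (key _ (Y.inv_mem hh) _ hinv) with h2 | h2
  · left
    rw [← tw_tw_inv h W', h2, tw_bot]
  · right
    rw [← tw_tw_inv h W', h2]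

variable [FiniteDimensional k M]

/-- Minimal subspaces exist. -/
lemma exists_minInv (X : Subgroup (LinearMap.GeneralLinearGroup k M)) :
    ∀ (n : ℕ) (W : Submodule k M), Module.finrank k W = n → W ≠ ⊥ → Inv X W → ∃ W₀ ≤ W, MinInv X W₀ := by
  intro n
  induction n using Nat.strong_induction_on with
  | _ n ih =>
    intro W hn hne hinv
    by_cases h : ∀ W' : Submodule k M, W' ≤ W → Inv X W' → W' = ⊥ ∨ W' = W
    · exact ⟨W, le_rfl, hne, hinv, h⟩
    · push Not at h
      obtain ⟨W', hle, hi, h0, h1⟩ := h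
      have hlt : W' < W := lt_of_le_of_ne hle h1
      have h2 := Submodule.finrank_lt_finrank_of_lt hlt
      obtain ⟨W₀, h4, h5⟩ := ih (Module.finrank k W') (by omega) W' rfl h0 hi
      exact ⟨W₀, h4.trans hle, h5⟩

/-- **Clifford's theorem**, in the form we need. -/
theorem SumIrr.of_normal {X Y : Subgroup (LinearMap.GeneralLinearGroup k M)} (hle : X ≤ Y)
    (hXY : ∀ h ∈ Y, ∀ n ∈ X, h * n * h⁻¹ ∈ X) (hY : SumIrr Y) : SumIrr X := by
  unfold SumIrr at hY ⊢
  rw [eq_top_iff, ← hY]
  refine iSup₂_le (fun W hW => ?_)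
  obtain ⟨W₀, hW₀, hm⟩ := exists_minInv X _ W rfl hW.ne (fun g hg => hW.inv g (hle hg))
  -- the sum of the translates
  let S : Submodule k M := ⨆ (h : LinearMap.GeneralLinearGroup k M) (_ : h ∈ Y), tw h W₀
  have hSW : S ≤ W := by
    refine iSup₂_le (fun h hh => ?_)
    rintro _ ⟨w, hw, rfl⟩
    exact hW.inv h hh w (hW₀ hw)
  have hSne : S ≠ ⊥ := by
    intro h0
    apply hm.ne
    rw [eq_bot_iff, ← h0]
    intro v hv
    have h1 : v ∈ tw 1 W₀ := by
      rw [mem_tw]
      simpa using hv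
    exact (le_iSup₂_of_le 1 Y.one_mem le_rfl : tw 1 W₀ ≤ S) h1
  have hSinv : Inv Y S := by
    intro g hg w hw
    have h1 : S ≤ S.comap (g : M →ₗ[k] M) := by
      refine iSup₂_le (fun h hh => ?_)
      rintro _ ⟨u, hu, rfl⟩
      show (g : M →ₗ[k] M) ((h : M →ₗ[k] M) u) ∈ S
      have h2 : (g : M →ₗ[k] M) ((h : M →ₗ[k] M) u) ∈ tw (g * h) W₀ := by
        rw [mem_tw]
        simp only [mul_inv_rev, Units.val_mul, Module.End.mul_apply, inv_apply_apply]
        exact hu
      exact (le_iSup₂_of_le (g * h) (Y.mul_mem hg hh) le_rfl : tw (g * h) W₀ ≤ S) h2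
    exact h1 hw
  have hSe : S = W := (hW.min S hSW hSinv).resolve_left hSne
  rw [← hSe]
  refine iSup₂_le (fun h hh => ?_)
  exact le_iSup₂_of_le (tw h W₀) (hm.tw hXY hh) le_rfl

/-- The whole space is minimal for an irreducible group. -/
lemma sumIrr_of_irr {X : Subgroup (LinearMap.GeneralLinearGroup k M)} (hX : Cfsg.IsIrreducibleFor X) : SumIrr X := by
  have h : MinInv X (⊤ : Submodule k M) := by
    refine ⟨?_, fun _ _ _ _ => trivial, fun W' _ hi => hX.2 W' hi⟩
    obtain ⟨m, hm⟩ := hX.1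
    intro h0
    have : m ∈ (⊥ : Submodule k M) := by rw [← h0]; trivial
    exact hm ((Submodule.mem_bot k).1 this)
  unfold SumIrr
  rw [eq_top_iff]
  exact le_iSup₂_of_le ⊤ h le_rfl

/-- Commuting nilpotent operators have a common kernel vector. -/
theorem exists_common_kernel (T : Set (M →ₗ[k] M)) (hc : ∀ s ∈ T, ∀ t ∈ T, s * t = t * s)
    (hn : ∀ t ∈ T, ∃ m : ℕ, t ^ m = 0) :
    ∀ (n : ℕ) (W : Submodule k M), Module.finrank k W = n → W ≠ ⊥ → (∀ t ∈ T, ∀ w ∈ W, t w ∈ W) →
      ∃ v ∈ W, v ≠ 0 ∧ ∀ t ∈ T, t v = 0 := by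
  intro n
  induction n using Nat.strong_induction_on with
  | _ n ih =>
    intro W hd hne hinv
    by_cases h : ∀ t ∈ T, ∀ w ∈ W, t w = 0
    · obtain ⟨v, hv, hv0⟩ := (Submodule.ne_bot_iff W).1 hne
      exact ⟨v, hv, hv0, fun t ht => h t ht v hv⟩
    · push Not at h
      obtain ⟨t, ht, w, hw, htw⟩ := h
      classical
      obtain ⟨m, hm⟩ := hn t ht
      have hex : ∃ j : ℕ, (t ^ j) w = 0 := ⟨m, by rw [hm]; rfl⟩
      have hf := Nat.find_spec hex
      have hmin := fun j => Nat.find_min hex (m := j)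
      obtain ⟨j, hj⟩ : ∃ j, Nat.find hex = j + 1 := by
        apply Nat.exists_eq_succ_of_ne_zero
        intro h0
        rw [h0] at hf
        apply htw
        simp only [pow_zero, Module.End.one_apply] at hf
        rw [hf, map_zero]
      rw [hj] at hf
      have hne0 : (t ^ j) w ≠ 0 := hmin j (by omega)
      have hkill : t ((t ^ j) w) = 0 := by
        rw [pow_succ'] at hf
        exact hf
      have hpowinv : ∀ i : ℕ, (t ^ i) w ∈ W := by
        intro i
        induction i with
        | zero => simpa using hw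
        | succ i ih' =>
          rw [pow_succ']
          exact hinv t ht _ ih'
      let W' : Submodule k M := W ⊓ LinearMap.ker t
      have hW'ne : W' ≠ ⊥ := by
        intro h0
        have : (t ^ j) w ∈ W' := ⟨hpowinv j, hkill⟩
        rw [h0] at this
        exact hne0 ((Submodule.mem_bot k).1 this)
      have hlt : W' < W := by
        refine lt_of_le_of_ne inf_le_left ?_
        intro h0
        have : w ∈ W' := by rw [h0]; exact hw
        exact htw this.2
      have hd' := Submodule.finrank_lt_finrank_of_lt hlt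
      obtain ⟨v, hv, hv0, hvk⟩ := ih (Module.finrank k W') (by omega) W' rfl hW'ne (by
        rintro s hs u ⟨hu1, hu2⟩
        refine ⟨hinv s hs u hu1, ?_⟩
        show t (s u) = 0
        have e := congrArg (fun F : M →ₗ[k] M => F u) (hc t ht s hs)
        simp only [Module.End.mul_apply] at e
        rw [e]
        have hu2' : t u = 0 := hu2
        rw [hu2', map_zero])
      exact ⟨v, hv.1, hv0, hvk⟩

/-- An `X`-stable family of commuting nilpotents inside the linear span of `X` vanishes. -/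
theorem family_zero {X : Subgroup (LinearMap.GeneralLinearGroup k M)} (hX : SumIrr X) (T : Set (M →ₗ[k] M))
    (hc : ∀ s ∈ T, ∀ t ∈ T, s * t = t * s) (hn : ∀ t ∈ T, ∃ m : ℕ, t ^ m = 0)
    (hs : ∀ n ∈ X, ∀ t ∈ T, cj n t ∈ T) (hi : ∀ t ∈ T, ∀ W : Submodule k M, Inv X W → ∀ w ∈ W, t w ∈ W) :
    ∀ t ∈ T, t = 0 := by
  have key : ∀ W : Submodule k M, MinInv X W → ∀ t ∈ T, ∀ w ∈ W, t w = 0 := by
    intro W hW t ht w hw
    let C : Submodule k M := W ⊓ (⨅ (t : M →ₗ[k] M) (_ : t ∈ T), LinearMap.ker t)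
    have memC : ∀ v, v ∈ C ↔ v ∈ W ∧ ∀ t ∈ T, t v = 0 := by
      intro v
      simp only [C, Submodule.mem_inf, Submodule.mem_iInf, LinearMap.mem_ker]
    obtain ⟨v, hv, hv0, hvk⟩ := exists_common_kernel T hc hn _ W rfl hW.ne (fun t ht => hi t ht W hW.inv)
    have hCne : C ≠ ⊥ := by
      intro h0
      have : v ∈ C := (memC v).2 ⟨hv, hvk⟩
      rw [h0] at this
      exact hv0 ((Submodule.mem_bot k).1 this)
    have hCinv : Inv X C := by
      intro g hg u hu
      obtain ⟨hu1, hu2⟩ := (memC u).1 hu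
      refine (memC _).2 ⟨hW.inv g hg u hu1, fun t ht => ?_⟩
      have h1 := hu2 _ (hs g⁻¹ (X.inv_mem hg) t ht)
      -- `cj g⁻¹ t u = g⁻¹ t g u`
      have h2 : cj g⁻¹ t u = ((g⁻¹ : LinearMap.GeneralLinearGroup k M) : M →ₗ[k] M) (t ((g : M →ₗ[k] M) u)) := by
        simp [cj]
      rw [h2] at h1
      have h3 := congrArg (g : M →ₗ[k] M) h1
      rwa [apply_inv_apply, map_zero] at h3
    have hCe : C = W := (hW.min C inf_le_left hCinv).resolve_left hCne
    have hw' : w ∈ C := by rw [hCe]; exact hw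
    exact ((memC w).1 hw').2 t ht
  intro t ht
  have hall : (⨆ (W : Submodule k M) (_ : MinInv X W), W) ≤ LinearMap.ker t :=
    iSup₂_le (fun W hW w hw => key W hW t ht w hw)
  rw [hX] at hall
  ext v
  exact hall (Submodule.mem_top (x := v))

section Ring

variable {A : Type*} [Ring A]

omit [FiniteDimensional k M] in
/-- The cube vanishes. -/
lemma cube_zero {p q : A} (hc : p * q = q * p) (hp : p * p = 0) (hq : q * q = 0) : (p + q + p * q) ^ 3 = 0 := by
  have h1 : ∀ w, p * (p * w) = 0 := fun w => by rw [← mul_assoc, hp, zero_mul]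
  have h2 : ∀ w, q * (q * w) = 0 := fun w => by rw [← mul_assoc, hq, zero_mul]
  have h3 : ∀ w, q * (p * w) = p * (q * w) := fun w => by rw [← mul_assoc, ← hc, mul_assoc]
  have e : (p + q + p * q) * (p + q + p * q) = p * q + p * q := by
    simp only [add_mul, mul_add, mul_assoc, h1, h2, h3, hp, hq, hc.symm]
    simp [h1, h2, h3, hp, hq]
  rw [pow_succ, pow_two, e]
  simp only [add_mul, mul_add, mul_assoc, h1, h2, h3, hp, hq, hc.symm]
  simp [h1, h2, h3, hp, hq]

end Ring

/-! ### Finiteness of the components -/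

variable {G : Subgroup (LinearMap.GeneralLinearGroup k M)}

/-- The component groups cut down the dimension. -/
theorem card_le_finrank (hG : Cfsg.IsQuadraticPair G) (h2 : (2 : k) ≠ 0) (h3 : Nat.card k ≠ 3)
    [DecidableEq (Set (Subgroup (LinearMap.GeneralLinearGroup k M)))]
    (s : Finset (Set (Subgroup (LinearMap.GeneralLinearGroup k M))))
    (hs : ∀ L ∈ s, ∃ A ∈ Cfsg.quadraticRootSubgroups G, L = cmp G A) :
    ∀ W : Submodule k M, W ≠ ⊥ → (∀ L ∈ s, Inv (HH L) W) → s.card + 1 ≤ Module.finrank k W := by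
  induction s using Finset.induction_on with
  | empty =>
    intro W hW _
    have : 0 < Module.finrank k W := by
      rw [Nat.pos_iff_ne_zero]
      intro h0
      exact hW (Submodule.finrank_eq_zero.1 h0)
    rw [Finset.card_empty]
    omega
  | @insert L t hLt ih =>
    intro W hW hinv
    obtain ⟨A, hA, rfl⟩ := hs L (Finset.mem_insert_self _ _)
    have hinvL := hinv _ (Finset.mem_insert_self _ _)
    -- a root element acts non-trivially
    have hex : ∃ B ∈ cmp G A, ∃ b ∈ B, ∃ w ∈ W, NN b w ≠ 0 := by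
      by_contra hcon
      push Not at hcon
      obtain ⟨v, hv, hv0⟩ := (Submodule.ne_bot_iff W).1 hW
      have : v ∈ Cfsg.fixedSubmodule (HH (cmp G A)) := by
        apply mem_fixed_HH
        intro B hB b hb
        have := hcon B hB b hb v hv
        simpa [NN, sub_eq_zero] using this
      rw [fixed_bot hG h2 h3 hA] at this
      exact hv0 ((Submodule.mem_bot k).1 this)
    obtain ⟨B, hB, b, hb, w, hw, hbw⟩ := hex
    have hb1 : b ≠ 1 := by
      rintro rfl
      apply hbw
      simp [NN]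
    obtain ⟨σ, hσ, rfl⟩ := hB.1
    have hlog := (mem_E_log hσ hb hb1).1
    have hbH : b ∈ HH (cmp G A) := le_HH hB hb
    -- the image
    let W' : Submodule k M := W.map (NN b)
    have hW'ne : W' ≠ ⊥ := by
      intro h0
      have : NN b w ∈ W' := ⟨w, hw, rfl⟩
      rw [h0] at this
      exact hbw ((Submodule.mem_bot k).1 this)
    have hW'le : W' ≤ W := by
      rintro _ ⟨u, hu, rfl⟩
      exact W.sub_mem (hinvL b hbH u hu) hu
    have hW'ker : W' ≤ W ⊓ LinearMap.ker (NN b) := by
      refine le_inf hW'le ?_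
      rintro _ ⟨u, hu, rfl⟩
      exact congrArg (fun F : M →ₗ[k] M => F u) hlog.sq
    have h5 := finrank_map_add_inf W (NN b)
    have h6 := Submodule.finrank_mono hW'ker
    have h7 : 0 < Module.finrank k W' := by
      rw [Nat.pos_iff_ne_zero]
      intro h0
      exact hW'ne (Submodule.finrank_eq_zero.1 h0)
    have h8 := ih (fun L hL => hs L (Finset.mem_insert_of_mem hL)) W' hW'ne (by
      intro L hL g hg
      obtain ⟨A', hA', rfl⟩ := hs L (Finset.mem_insert_of_mem hL)
      have hne : cmp G A ≠ cmp G A' := by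
        intro he
        rw [he] at hLt
        exact hLt hL
      have hgW := hinv _ (Finset.mem_insert_of_mem hL) g hg
      have hcomm := comm_HH hG h2 h3 hne b hbH g hg
      have h9 := congrArg Units.val hcomm
      simp only [Units.val_mul] at h9
      rintro _ ⟨u, hu, rfl⟩
      refine ⟨(g : M →ₗ[k] M) u, hgW u hu, ?_⟩
      have h10 := congrArg (fun F : M →ₗ[k] M => F u) h9
      simp only [Module.End.mul_apply] at h10
      simp only [NN, LinearMap.sub_apply, Module.End.one_apply, map_sub]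
      rw [h10])
    rw [Finset.card_insert_of_notMem hLt]
    have h9 : Module.finrank k W' = Module.finrank k (Submodule.map (NN b) W) := rfl
    omega

/-- **The components are finitely many.** -/
theorem comps_finite (hG : Cfsg.IsQuadraticPair G) (h2 : (2 : k) ≠ 0) (h3 : Nat.card k ≠ 3) :
    {L | ∃ A ∈ Cfsg.quadraticRootSubgroups G, L = cmp G A}.Finite := by
  classical
  by_contra hinf
  obtain ⟨t, ht, hc⟩ := Set.Infinite.exists_subset_card_eq hinf (Module.finrank k M)
  have hW : (⊤ : Submodule k M) ≠ ⊥ := by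
    obtain ⟨m, hm⟩ := hG.1.1
    intro h0
    have : m ∈ (⊥ : Submodule k M) := by rw [← h0]; trivial
    exact hm ((Submodule.mem_bot k).1 this)
  have := card_le_finrank hG h2 h3 t (fun L hL => ht hL) ⊤ hW (fun _ _ _ _ _ _ => trivial)
  rw [finrank_top, hc] at this
  omega

end Cfsg.Agent.Lib.QuadMain.Cliff
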