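import Cfsg.Agent.Lib.QuadMain.Decomp
import Mathlib

/-!
# `G = G₀ C_G(G₀)`
-/

set_option autoImplicit false
set_option linter.unusedSectionVars false
set_option linter.unusedVariables false

namespace Cfsg.Agent.Lib.QuadMain.Cocentral

open Polynomial
open Cfsg.Agent.Lib.Linalg.Quad.Dich Cfsg.Agent.Lib.Linalg.Quad.Psi Cfsg.Agent.Lib.Linalg.Quad.Root
  Cfsg.Agent.Lib.Linalg.Quad.Pair Cfsg.Agent.Lib.Linalg.Quad.NType Cfsg.Agent.Lib.Linalg.Quad.UType
  Cfsg.Agent.Lib.Linalg.Quad.Surj Cfsg.Agent.Lib.Linalg.Quad.RootSet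
open Cfsg.Agent.Lib.QuadMain.Log Cfsg.Agent.Lib.QuadMain.Decomp

variable {k : Type*} [Field k] {M : Type*} [AddCommGroup M] [Module k M] [FiniteDimensional k M]
  {G : Subgroup (LinearMap.GeneralLinearGroup k M)}

omit [FiniteDimensional k M] in
/-- Product formula. -/
lemma oa_add {a b : M →ₗ[k] M} (ha : a * a = 0) (hb : b * b = 0) (hab : a * b = 0) (hs : (a + b) * (a + b) = 0) :
    oa (a + b) hs 1 = oa a ha 1 * oa b hb 1 := by
  apply Units.ext
  simp only [Units.val_mul, oa_val, one_smul]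
  have e : ∀ p q : M →ₗ[k] M, (1 + p) * (1 + q) = 1 + p + q + p * q := by
    intro p q; noncomm_ring
  rw [e, hab, add_zero, add_assoc]

/-- Minimal logarithms give elements of their root group. -/
lemma oa_mem_root {z : M →ₗ[k] M} (hz : MinLog G z) : oa z hz.sq 1 ∈ G0 G := by
  have h := mem_of_minLog hz
  exact le_G0 (A := Cfsg.sameActionSubgroup G (oa z hz.sq 1)) ⟨_, h, rfl⟩ (Subgroup.subset_closure ⟨h, rfl, rfl⟩)

/-- The elements of root subgroups have minimal logarithms. -/
lemma mem_root_cases {A : Subgroup (LinearMap.GeneralLinearGroup k M)} (hA : A ∈ Cfsg.quadraticRootSubgroups G)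
    {a : LinearMap.GeneralLinearGroup k M} (ha : a ∈ A) : a = 1 ∨ MinLog G (NN a) := by
  obtain ⟨σ, hσ, rfl⟩ := hA
  by_cases h1 : a = 1
  · exact Or.inl h1
  · exact Or.inr (mem_E_log hσ ha h1).1

/-- A logarithm of the radical centralizes `G₀`. -/
lemma oa_centralizes (hG : Cfsg.IsQuadraticPair G) (h2 : (2 : k) ≠ 0) (h3 : Nat.card k ≠ 3) {x : M →ₗ[k] M}
    (hx : LogZ G x) (hr : Rad G x) : oa x hx.sq 1 ∈ Subgroup.centralizer ((G0 G : Subgroup _) : Set (LinearMap.GeneralLinearGroup k M)) := by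
  have hle : G0 G ≤ Subgroup.centralizer ({oa x hx.sq 1} : Set (LinearMap.GeneralLinearGroup k M)) := by
    refine iSup₂_le fun A hA a ha => ?_
    rw [Subgroup.mem_centralizer_singleton_iff]
    rcases mem_root_cases hA ha with rfl | hm
    · simp
    · have h5 := (comm_of_rad hG h2 h3 hx hr hm).1
      apply Units.ext
      rw [Units.val_mul, Units.val_mul, val_eq_one_add a]
      simp only [oa_val, one_smul]
      have e : ∀ p q : M →ₗ[k] M, (1 + p) * (1 + q) = 1 + p + q + p * q := by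
        intro p q; noncomm_ring
      rw [e, e, h5]
      abel
  rw [Subgroup.mem_centralizer_iff]
  intro h hh
  have := hle hh
  rw [Subgroup.mem_centralizer_singleton_iff] at this
  exact this

/-- The main induction. -/
theorem oa_mem_sup (hG : Cfsg.IsQuadraticPair G) (h2 : (2 : k) ≠ 0) (h3 : Nat.card k ≠ 3) :
    ∀ (n : ℕ) (x : M →ₗ[k] M) (hx : LogZ G x), rk x = n →
      oa x hx.sq 1 ∈ G0 G ⊔ (G ⊓ Subgroup.centralizer ((G0 G : Subgroup _) : Set (LinearMap.GeneralLinearGroup k M))) := by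
  intro n
  induction n using Nat.strong_induction_on with
  | _ n ih =>
    intro x hx hn
    by_cases hr : Rad G x
    · exact Subgroup.mem_sup_right ⟨hx.oa_mem 1, oa_centralizes hG h2 h3 hx hr⟩
    · by_cases hx0 : x = 0
      · subst hx0
        have : oa (0 : M →ₗ[k] M) hx.sq 1 = 1 := by
          apply Units.ext
          simp
        rw [this]
        exact Subgroup.one_mem _
      · unfold Rad at hr
        push Not at hr
        obtain ⟨y, hy, hne⟩ := hr
        obtain ⟨x₁, x₀, h1, h0, rfl, h10, h01, hlt⟩ := decomp h2 h3 (hx.toLogQ hx0) hy hne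
        rw [oa_add h1.sq h0.sq h10 hx.sq]
        exact Subgroup.mul_mem _ (Subgroup.mem_sup_left (oa_mem_root h1)) (ih (rk x₀) (by omega) x₀ h0 rfl)

/-- **`G = G₀ C_G(G₀)`.** -/
theorem sup_centralizer (hG : Cfsg.IsQuadraticPair G) (h2 : (2 : k) ≠ 0) (h3 : Nat.card k ≠ 3) :
    G0 G ⊔ (G ⊓ Subgroup.centralizer ((G0 G : Subgroup _) : Set (LinearMap.GeneralLinearGroup k M))) = G := by
  apply le_antisymm
  · exact sup_le G0_le inf_le_left
  · rw [← hG.2, Subgroup.closure_le]
    rw [hG.2]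
    intro σ hσ
    have hl := logQ_of_mem hσ
    have := oa_mem_sup hG h2 h3 _ _ (LogQ.toLogZ hl) rfl
    have e : oa ((σ : M →ₗ[k] M) - 1) hl.sq 1 = σ := by
      apply Units.ext
      simp
    rwa [e] at this

end Cfsg.Agent.Lib.QuadMain.Cocentral
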