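import Cfsg.Agent.Lib.QuadMain.Cocentral
import Mathlib

/-!
# Connectivity of the root subgroups of a quadratic pair
-/

set_option autoImplicit false
set_option linter.unusedSectionVars false
set_option linter.unusedVariables false

namespace Cfsg.Agent.Lib.QuadMain.Conn

open Polynomial
open Cfsg.Agent.Lib.Linalg.Quad.Dich Cfsg.Agent.Lib.Linalg.Quad.Psi Cfsg.Agent.Lib.Linalg.Quad.Root
  Cfsg.Agent.Lib.Linalg.Quad.Pair Cfsg.Agent.Lib.Linalg.Quad.NType Cfsg.Agent.Lib.Linalg.Quad.UType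
  Cfsg.Agent.Lib.Linalg.Quad.Surj Cfsg.Agent.Lib.Linalg.Quad.RootSet Cfsg.Agent.Lib.Linalg.Quad.Class2
open Cfsg.Agent.Lib.QuadMain.Log Cfsg.Agent.Lib.QuadMain.Decomp Cfsg.Agent.Lib.QuadMain.Cocentral

variable {k : Type*} [Field k] {M : Type*} [AddCommGroup M] [Module k M] [FiniteDimensional k M]
  {G : Subgroup (LinearMap.GeneralLinearGroup k M)}

/-! ### A common neighbour -/

omit [FiniteDimensional k M] in
lemma cj_fix {a w : M →ₗ[k] M} (ha : a * a = 0) (h1 : a * w = 0) (h2 : w * a = 0) (c : k) :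
    cj (oa a ha c) w = w := by
  unfold cj
  rw [oa_inv]
  simp only [oa_val, neg_smul, add_mul, mul_add, one_mul, mul_one, smul_mul_assoc, mul_neg, h1, h2, smul_zero,
    add_zero, neg_zero, zero_add, mul_smul_comm]

/-- One step towards a common neighbour. -/
lemma step (h2 : (2 : k) ≠ 0) (h3 : Nat.card k ≠ 3) {a b f : M →ₗ[k] M} (P : UPair G a b) (hf : MinLog G f)
    (hzf : NTy (zz a b) f) :
    ∃ f', MinLog G f' ∧ NTy b f' ∧ ∀ w, a * w = 0 → w * a = 0 → NTy w f → NTy w f' := by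
  by_cases hb : NTy b f
  · exact ⟨f, hf, hb, fun w _ _ h => h⟩
  obtain ⟨p1, p2⟩ := (pair_dich h2 h3 P.hy hf).resolve_left hb
  have hbz : cj (oa a P.hx.sq 1) b = b + zz a b := by
    rw [cj_p, P.xyx]
    simp [zz]
  have hm : MinLog G (b + zz a b) := by
    rw [← hbz]
    exact minLog_cj P.hy (P.hx.oa_mem 1)
  have hNT : NTy (b + zz a b) f := by
    refine (pair_dich h2 h3 hm hf).resolve_right ?_
    rintro ⟨_, h5⟩
    rw [mul_add, add_mul, p2, zero_add] at h5
    exact hzf.symm.not_zero hf.ne h5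
  have hg : (oa a P.hx.sq 1)⁻¹ ∈ G := G.inv_mem (P.hx.oa_mem 1)
  refine ⟨cj (oa a P.hx.sq 1)⁻¹ f, minLog_cj hf hg, ?_, ?_⟩
  · have h4 := NTy_cj hNT (oa a P.hx.sq 1)⁻¹
    rwa [← hbz, cj_inv_cj] at h4
  · intro w h1 h2' hw
    have h4 := NTy_cj hw (oa a P.hx.sq 1)⁻¹
    rw [oa_inv] at h4 ⊢
    rwa [cj_fix P.hx.sq h1 h2'] at h4

/-- A common neighbour of `a`, `b` and `[a, b]`. -/
theorem exists_common (hG : Cfsg.IsQuadraticPair G) (h2 : (2 : k) ≠ 0) (h3 : Nat.card k ≠ 3) {a b : M →ₗ[k] M}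
    (P : UPair G a b) (hz : zz a b ≠ 0) :
    ∃ f, MinLog G f ∧ NTy a f ∧ NTy b f ∧ NTy (zz a b) f := by
  have hzm := P.minZ hz
  obtain ⟨g, hg, hN⟩ := exists_conj_NTy hG h2 h3 (mem_of_minLog hzm)
  rw [NN_oa] at hN
  obtain ⟨f₁, hf₁, hb₁, hr₁⟩ := step h2 h3 P (minLog_cj hzm hg) hN
  have hzf₁ : NTy (zz a b) f₁ := hr₁ _ P.x_mul_z P.z_mul_x hN
  have hzf₁' : NTy (zz b a) f₁ := by
    rw [zz_swap]
    exact hzf₁.congr (same_neg _) (Same.refl _)
  obtain ⟨f₂, hf₂, ha₂, hr₂⟩ := step h2 h3 P.symm hf₁ hzf₁'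
  exact ⟨f₂, hf₂, ha₂, hr₂ _ P.hy.sq P.hy.sq hb₁, hr₂ _ P.y_mul_z P.z_mul_y hzf₁⟩

/-! ### The graph -/

/-- The adjacency. -/
abbrev Adj (G : Subgroup (LinearMap.GeneralLinearGroup k M)) :
    Subgroup (LinearMap.GeneralLinearGroup k M) → Subgroup (LinearMap.GeneralLinearGroup k M) → Prop :=
  Cfsg.FAdj (Cfsg.quadraticRootSubgroups G)

/-- The components. -/
abbrev cmp (G A : Subgroup (LinearMap.GeneralLinearGroup k M)) : Set (Subgroup (LinearMap.GeneralLinearGroup k M)) :=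
  Cfsg.componentOf (Adj G) (Cfsg.quadraticRootSubgroups G) A

/-- The group generated by a family. -/
abbrev HH (L : Set (Subgroup (LinearMap.GeneralLinearGroup k M))) : Subgroup (LinearMap.GeneralLinearGroup k M) :=
  ⨆ B ∈ L, B

/-- The root group of a minimal logarithm. -/
abbrev Ez {z : M →ₗ[k] M} (hz : MinLog G z) : Subgroup (LinearMap.GeneralLinearGroup k M) :=
  Cfsg.sameActionSubgroup G (oa z hz.sq 1)

lemma Ez_mem {z : M →ₗ[k] M} (hz : MinLog G z) : Ez hz ∈ Cfsg.quadraticRootSubgroups G :=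
  ⟨_, mem_of_minLog hz, rfl⟩

lemma E_self {σ : LinearMap.GeneralLinearGroup k M} (hσ : σ ∈ Cfsg.minimalQuadraticElements G) :
    σ ∈ Cfsg.sameActionSubgroup G σ := Subgroup.subset_closure ⟨hσ, rfl, rfl⟩

lemma Ez_of_mem {σ : LinearMap.GeneralLinearGroup k M} (hσ : σ ∈ Cfsg.minimalQuadraticElements G)
    (h : MinLog G (NN σ)) : Ez h = Cfsg.sameActionSubgroup G σ := by
  have : oa (NN σ) h.sq 1 = σ := (eq_oa σ h.sq).symm
  unfold Ez
  rw [this]

lemma adj_symm {A B : Subgroup (LinearMap.GeneralLinearGroup k M)} (h : Adj G A B) : Adj G B A :=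
  ⟨h.2.1, h.1, Cfsg.RankOnePair_symm h.2.2⟩

lemma rtg_symm {A B : Subgroup (LinearMap.GeneralLinearGroup k M)} (h : Relation.ReflTransGen (Adj G) A B) :
    Relation.ReflTransGen (Adj G) B A := by
  induction h with
  | refl => exact .refl
  | tail _ hbc ih => exact (Relation.ReflTransGen.single (adj_symm hbc)).trans ih

lemma adj_of_NTy' (h2 : (2 : k) ≠ 0) (h3 : Nat.card k ≠ 3) {σ τ : LinearMap.GeneralLinearGroup k M}
    (hσ : σ ∈ Cfsg.minimalQuadraticElements G) (hτ : τ ∈ Cfsg.minimalQuadraticElements G) (hN : NTy (NN σ) (NN τ)) :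
    Adj G (Cfsg.sameActionSubgroup G σ) (Cfsg.sameActionSubgroup G τ) :=
  ⟨⟨σ, hσ, rfl⟩, ⟨τ, hτ, rfl⟩, (isSpecialRankOne h2 h3 hσ hτ hN).1⟩

lemma adj_of_NTy (h2 : (2 : k) ≠ 0) (h3 : Nat.card k ≠ 3) {x y : M →ₗ[k] M} (hx : MinLog G x) (hy : MinLog G y)
    (hN : NTy x y) : Adj G (Ez hx) (Ez hy) :=
  adj_of_NTy' h2 h3 (mem_of_minLog hx) (mem_of_minLog hy) (by rwa [NN_oa, NN_oa])

lemma mem_cmp_self {A : Subgroup (LinearMap.GeneralLinearGroup k M)} (hA : A ∈ Cfsg.quadraticRootSubgroups G) :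
    A ∈ cmp G A := ⟨hA, Relation.ReflTransGen.refl⟩

lemma cmp_eq {A B : Subgroup (LinearMap.GeneralLinearGroup k M)} (h : Relation.ReflTransGen (Adj G) A B) :
    cmp G A = cmp G B := by
  ext C
  constructor
  · rintro ⟨h1, h4⟩
    exact ⟨h1, (rtg_symm h).trans h4⟩
  · rintro ⟨h1, h4⟩
    exact ⟨h1, h.trans h4⟩

lemma cmp_eq_of_mem {A B : Subgroup (LinearMap.GeneralLinearGroup k M)} (h : B ∈ cmp G A) : cmp G B = cmp G A :=
  (cmp_eq h.2).symm

lemma le_HH {L : Set (Subgroup (LinearMap.GeneralLinearGroup k M))} {B : Subgroup (LinearMap.GeneralLinearGroup k M)}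
    (h : B ∈ L) : B ≤ HH L := le_iSup₂_of_le B h le_rfl

lemma cmp_sub {A : Subgroup (LinearMap.GeneralLinearGroup k M)} : cmp G A ⊆ Cfsg.quadraticRootSubgroups G :=
  fun _ h => h.1

lemma HH_le_G {L : Set (Subgroup (LinearMap.GeneralLinearGroup k M))} (h : L ⊆ Cfsg.quadraticRootSubgroups G) :
    HH L ≤ G := by
  refine iSup₂_le ?_
  intro B hB
  obtain ⟨σ, _, rfl⟩ := h hB
  exact E_le_G

/-- Non-commuting root groups are connected. -/
theorem rtg_of_comm_ne (hG : Cfsg.IsQuadraticPair G) (h2 : (2 : k) ≠ 0) (h3 : Nat.card k ≠ 3)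
    {A B : Subgroup (LinearMap.GeneralLinearGroup k M)} (hA : A ∈ Cfsg.quadraticRootSubgroups G)
    (hB : B ∈ Cfsg.quadraticRootSubgroups G) (h : ⁅A, B⁆ ≠ ⊥) : Relation.ReflTransGen (Adj G) A B := by
  obtain ⟨σ, hσ, rfl⟩ := hA
  obtain ⟨τ, hτ, rfl⟩ := hB
  by_cases hN : NTy (NN σ) (NN τ)
  · exact Relation.ReflTransGen.single (adj_of_NTy' h2 h3 hσ hτ hN)
  have hx := minLog_of_mem hσ
  have hy := minLog_of_mem hτ
  have P : UPair G (NN σ) (NN τ) := upair_of_not h2 h3 hN hx hy (Same.refl _) (Same.refl _)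
  have hσ1 : σ ≠ 1 := by
    rintro rfl
    exact hx.ne (by simp [NN])
  have hτ1 : τ ≠ 1 := by
    rintro rfl
    exact hy.ne (by simp [NN])
  have hz : zz (NN σ) (NN τ) ≠ 0 := fun h0 =>
    h (comm_of_comm h2 h3 hσ hτ (E_self hσ) hσ1 (E_self hτ) hτ1 (mul_comm_of_zz h0))
  obtain ⟨f, hf, h4, h5, _⟩ := exists_common hG h2 h3 P hz
  have hfm := mem_of_minLog hf
  have h6 : NTy (NN σ) (NN (oa f hf.sq 1)) := by rwa [NN_oa]
  have h7 : NTy (NN τ) (NN (oa f hf.sq 1)) := by rwa [NN_oa]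
  exact Relation.ReflTransGen.tail (Relation.ReflTransGen.single (adj_of_NTy' h2 h3 hσ hfm h6))
    (adj_symm (adj_of_NTy' h2 h3 hτ hfm h7))

/-- The commutator lies in the component. -/
theorem comm_mem_cmp (hG : Cfsg.IsQuadraticPair G) (h2 : (2 : k) ≠ 0) (h3 : Nat.card k ≠ 3)
    {σ τ : LinearMap.GeneralLinearGroup k M} (hσ : σ ∈ Cfsg.minimalQuadraticElements G)
    (hτ : τ ∈ Cfsg.minimalQuadraticElements G) (hN : ¬ NTy (NN σ) (NN τ))
    (hC : ⁅Cfsg.sameActionSubgroup G σ, Cfsg.sameActionSubgroup G τ⁆ ∈ Cfsg.quadraticRootSubgroups G) :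
    ⁅Cfsg.sameActionSubgroup G σ, Cfsg.sameActionSubgroup G τ⁆ ∈ cmp G (Cfsg.sameActionSubgroup G σ) := by
  refine ⟨hC, ?_⟩
  obtain ⟨ρ, hρ, hρe⟩ := id hC
  have hx := minLog_of_mem hσ
  have hy := minLog_of_mem hτ
  have hr := minLog_of_mem hρ
  have P : UPair G (NN σ) (NN τ) := upair_of_not h2 h3 hN hx hy (Same.refl _) (Same.refl _)
  have hσ1 : σ ≠ 1 := by
    rintro rfl
    exact hx.ne (by simp [NN])
  have hτ1 : τ ≠ 1 := by
    rintro rfl
    exact hy.ne (by simp [NN])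
  have hρ1 : ρ ≠ 1 := by
    rintro rfl
    exact hr.ne (by simp [NN])
  have hz : zz (NN σ) (NN τ) ≠ 0 := by
    intro h0
    have h4 := comm_of_comm h2 h3 hσ hτ (E_self hσ) hσ1 (E_self hτ) hτ1 (mul_comm_of_zz h0)
    rw [h4] at hρe
    have : ρ ∈ (⊥ : Subgroup (LinearMap.GeneralLinearGroup k M)) := by
      rw [hρe]
      exact E_self hρ
    exact hρ1 ((Subgroup.mem_bot).1 this)
  have hd : σ * τ * σ⁻¹ * τ⁻¹ ∈ Cfsg.sameActionSubgroup G ρ := by
    rw [← hρe]
    exact Subgroup.commutator_mem_commutator (E_self hσ) (E_self hτ)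
  have hNd : NN (σ * τ * σ⁻¹ * τ⁻¹) = zz (NN σ) (NN τ) := comm_val'' P.hx.sq P.hy.sq P.xyx P.yxy
  have hd1 : σ * τ * σ⁻¹ * τ⁻¹ ≠ 1 := by
    intro h0
    rw [h0] at hNd
    apply hz
    rw [← hNd]
    simp [NN]
  obtain ⟨_, hs⟩ := mem_E_log hρ hd hd1
  rw [hNd] at hs
  obtain ⟨f, hf, h4, h5, h6⟩ := exists_common hG h2 h3 P hz
  have hfm := mem_of_minLog hf
  have h7 : NTy (NN σ) (NN (oa f hf.sq 1)) := by rwa [NN_oa]
  have h8 : NTy (NN ρ) (NN (oa f hf.sq 1)) := by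
    rw [NN_oa]
    exact h6.congr hs.symm (Same.refl _)
  rw [hρe]
  exact Relation.ReflTransGen.tail (Relation.ReflTransGen.single (adj_of_NTy' h2 h3 hσ hfm h7))
    (adj_symm (adj_of_NTy' h2 h3 hρ hfm h8))

/-! ### Conjugation -/

lemma comm_of_commutator_bot {Γ : Type*} [Group Γ] {A B : Subgroup Γ} (h : ⁅A, B⁆ = ⊥) {a b : Γ} (ha : a ∈ A)
    (hb : b ∈ B) : a * b = b * a := by
  rw [Subgroup.commutator_eq_bot_iff_le_centralizer] at h
  exact (Subgroup.mem_centralizer_iff.1 (h ha) b hb).symm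

lemma commutator_bot_of_comm {Γ : Type*} [Group Γ] {A B : Subgroup Γ} (h : ∀ a ∈ A, ∀ b ∈ B, a * b = b * a) :
    ⁅A, B⁆ = ⊥ := by
  rw [Subgroup.commutator_eq_bot_iff_le_centralizer]
  intro a ha
  rw [Subgroup.mem_centralizer_iff]
  intro b hb
  exact (h a ha b hb).symm

/-- Conjugating by an element of a root group. -/
theorem conj_root (hG : Cfsg.IsQuadraticPair G) (h2 : (2 : k) ≠ 0) (h3 : Nat.card k ≠ 3)
    {A F : Subgroup (LinearMap.GeneralLinearGroup k M)} (hA : A ∈ Cfsg.quadraticRootSubgroups G)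
    (hF : F ∈ Cfsg.quadraticRootSubgroups G) {a : LinearMap.GeneralLinearGroup k M} (ha : a ∈ A) :
    Cfsg.conjBy F a ∈ cmp G F := by
  have hcF : Cfsg.conjBy F a ∈ Cfsg.quadraticRootSubgroups G := by
    obtain ⟨τ, hτ, rfl⟩ := id hF
    obtain ⟨σ, hσ, rfl⟩ := id hA
    rw [conjBy_E hτ (E_le_G ha)]
    exact ⟨_, conj_mem_min hτ (E_le_G ha), rfl⟩
  by_cases hc : ⁅A, F⁆ = ⊥
  · rw [conjBy_of_comm (fun b hb => comm_of_commutator_bot hc ha hb)]
    exact mem_cmp_self hF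
  refine ⟨hcF, ?_⟩
  have h1 := rtg_of_comm_ne hG h2 h3 hA hF hc
  have h4 : ⁅A, Cfsg.conjBy F a⁆ ≠ ⊥ := by
    intro h0
    apply hc
    apply commutator_bot_of_comm
    intro b hb c hc
    have h5 : a * b * a⁻¹ ∈ A := A.mul_mem (A.mul_mem ha hb) (A.inv_mem ha)
    have h6 : a * c * a⁻¹ ∈ Cfsg.conjBy F a := ⟨c, hc, rfl⟩
    have h7 := comm_of_commutator_bot h0 h5 h6
    have h8 : a * (b * c) * a⁻¹ = a * (c * b) * a⁻¹ := by
      calc a * (b * c) * a⁻¹ = (a * b * a⁻¹) * (a * c * a⁻¹) := by group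
        _ = (a * c * a⁻¹) * (a * b * a⁻¹) := h7
        _ = a * (c * b) * a⁻¹ := by group
    exact mul_left_cancel (mul_right_cancel h8)
  exact (rtg_symm h1).trans (rtg_of_comm_ne hG h2 h3 hA hcF h4)

/-- Conjugating by the exponential of a logarithm. -/
theorem conj_log (hG : Cfsg.IsQuadraticPair G) (h2 : (2 : k) ≠ 0) (h3 : Nat.card k ≠ 3) :
    ∀ (n : ℕ) (x : M →ₗ[k] M) (hx : LogZ G x), rk x = n → ∀ F ∈ Cfsg.quadraticRootSubgroups G,
      Cfsg.conjBy F (oa x hx.sq 1) ∈ cmp G F := by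
  intro n
  induction n using Nat.strong_induction_on with
  | _ n ih =>
    intro x hx hn F hF
    by_cases hr : Rad G x
    · have hc := oa_centralizes hG h2 h3 hx hr
      rw [conjBy_of_comm]
      · exact mem_cmp_self hF
      · intro a ha
        exact (Subgroup.mem_centralizer_iff.1 hc a (le_G0 hF ha)).symm
    · by_cases hx0 : x = 0
      · subst hx0
        have : oa (0 : M →ₗ[k] M) hx.sq 1 = 1 := by
          apply Units.ext
          simp
        rw [this, conjBy_one']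
        exact mem_cmp_self hF
      · unfold Rad at hr
        push Not at hr
        obtain ⟨y, hy, hne⟩ := hr
        obtain ⟨x₁, x₀, h1, h0, rfl, h10, h01, hlt⟩ := decomp h2 h3 (hx.toLogQ hx0) hy hne
        rw [oa_add h1.sq h0.sq h10 hx.sq, conjBy_mul]
        have h4 := ih (rk x₀) (by omega) x₀ h0 rfl F hF
        have h5 := conj_root hG h2 h3 (Ez_mem h1) h4.1
          (a := oa x₁ h1.sq 1) (E_self (mem_of_minLog h1))
        rw [cmp_eq_of_mem h4] at h5
        exact h5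

/-- **The component is stable under conjugation.** -/
theorem conj_mem_cmp (hG : Cfsg.IsQuadraticPair G) (h2 : (2 : k) ≠ 0) (h3 : Nat.card k ≠ 3)
    {g : LinearMap.GeneralLinearGroup k M} (hg : g ∈ G) :
    ∀ F ∈ Cfsg.quadraticRootSubgroups G, Cfsg.conjBy F g ∈ cmp G F := by
  suffices h : (∀ F ∈ Cfsg.quadraticRootSubgroups G, Cfsg.conjBy F g ∈ cmp G F) ∧
      (∀ F ∈ Cfsg.quadraticRootSubgroups G, Cfsg.conjBy F g⁻¹ ∈ cmp G F) from h.1
  rw [← hG.2] at hg
  induction hg using Subgroup.closure_induction with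
  | mem σ hσ =>
    have hl := logQ_of_mem hσ
    have hL := LogQ.toLogZ hl
    have e1 : oa ((σ : M →ₗ[k] M) - 1) hl.sq 1 = σ := by
      apply Units.ext
      simp
    constructor
    · intro F hF
      have := conj_log hG h2 h3 _ _ hL rfl F hF
      rwa [show oa ((σ : M →ₗ[k] M) - 1) hL.sq 1 = σ from e1] at this
    · intro F hF
      have hL' := hL.smul (-1)
      have e2 : oa ((-1 : k) • ((σ : M →ₗ[k] M) - 1)) hL'.sq 1 = σ⁻¹ := by
        have e3 : (oa ((σ : M →ₗ[k] M) - 1) hl.sq 1)⁻¹ = σ⁻¹ := by rw [e1]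
        rw [← e3, oa_inv]
        apply Units.ext
        simp
      have := conj_log hG h2 h3 _ _ hL' rfl F hF
      rwa [e2] at this
  | one =>
    constructor
    · intro F hF
      rw [conjBy_one']
      exact mem_cmp_self hF
    · intro F hF
      rw [inv_one, conjBy_one']
      exact mem_cmp_self hF
  | mul a b _ _ ha hb =>
    constructor
    · intro F hF
      rw [conjBy_mul]
      have h4 := hb.1 F hF
      have h5 := ha.1 _ h4.1
      rwa [cmp_eq_of_mem h4] at h5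
    · intro F hF
      rw [mul_inv_rev, conjBy_mul]
      have h4 := ha.2 F hF
      have h5 := hb.2 _ h4.1
      rwa [cmp_eq_of_mem h4] at h5
  | inv a _ ha =>
    refine ⟨ha.2, ?_⟩
    rw [inv_inv]
    exact ha.1

/-- The component group is normal. -/
theorem conj_HH (hG : Cfsg.IsQuadraticPair G) (h2 : (2 : k) ≠ 0) (h3 : Nat.card k ≠ 3)
    {A : Subgroup (LinearMap.GeneralLinearGroup k M)} {g : LinearMap.GeneralLinearGroup k M} (hg : g ∈ G)
    {h : LinearMap.GeneralLinearGroup k M} (hh : h ∈ HH (cmp G A)) : g * h * g⁻¹ ∈ HH (cmp G A) := by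
  have hle : HH (cmp G A) ≤ (HH (cmp G A)).comap (MulAut.conj g).toMonoidHom := by
    refine iSup₂_le ?_
    intro B hB b hb
    show g * b * g⁻¹ ∈ HH (cmp G A)
    have h4 := conj_mem_cmp hG h2 h3 hg B hB.1
    rw [cmp_eq_of_mem hB] at h4
    exact le_HH h4 ⟨b, hb, rfl⟩
  exact hle hh

/-! ### Fixed points -/

omit [FiniteDimensional k M] in
lemma mem_fixed_iff {H : Subgroup (LinearMap.GeneralLinearGroup k M)} {v : M} :
    v ∈ Cfsg.fixedSubmodule H ↔ ∀ g ∈ H, (g : M →ₗ[k] M) v = v := by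
  simp only [Cfsg.fixedSubmodule, Submodule.mem_iInf, LinearMap.mem_ker, LinearMap.sub_apply, Module.End.one_apply,
    sub_eq_zero]

omit [FiniteDimensional k M] in
/-- The stabilizer of a vector. -/
def stabV (v : M) : Subgroup (LinearMap.GeneralLinearGroup k M) where
  carrier := {g | (g : M →ₗ[k] M) v = v}
  mul_mem' := by
    intro a b ha hb
    simp only [Set.mem_setOf_eq, Units.val_mul, Module.End.mul_apply] at ha hb ⊢
    rw [hb, ha]
  one_mem' := by simp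
  inv_mem' := by
    intro a ha
    simp only [Set.mem_setOf_eq] at ha ⊢
    conv_lhs => rw [← ha]
    have h' : ((a⁻¹ : LinearMap.GeneralLinearGroup k M) : M →ₗ[k] M) * (a : M →ₗ[k] M) = 1 := by
      rw [← Units.val_mul]; simp
    exact congrArg (fun f : M →ₗ[k] M => f v) h'

omit [FiniteDimensional k M] in
lemma mem_stabV {v : M} {g : LinearMap.GeneralLinearGroup k M} : g ∈ stabV v ↔ (g : M →ₗ[k] M) v = v := Iff.rfl

omit [FiniteDimensional k M] in
lemma mem_fixed_HH {L : Set (Subgroup (LinearMap.GeneralLinearGroup k M))} {v : M}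
    (h : ∀ B ∈ L, ∀ b ∈ B, (b : M →ₗ[k] M) v = v) : v ∈ Cfsg.fixedSubmodule (HH L) := by
  rw [mem_fixed_iff]
  intro g hg
  have hle : HH L ≤ stabV v := iSup₂_le (fun B hB b hb => h B hB b hb)
  exact hle hg

omit [FiniteDimensional k M] in
lemma inv_apply_apply (g : LinearMap.GeneralLinearGroup k M) (v : M) :
    ((g⁻¹ : LinearMap.GeneralLinearGroup k M) : M →ₗ[k] M) ((g : M →ₗ[k] M) v) = v := by
  have h' : ((g⁻¹ : LinearMap.GeneralLinearGroup k M) : M →ₗ[k] M) * (g : M →ₗ[k] M) = 1 := by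
    rw [← Units.val_mul]; simp
  exact congrArg (fun f : M →ₗ[k] M => f v) h'

omit [FiniteDimensional k M] in
lemma apply_inv_apply (g : LinearMap.GeneralLinearGroup k M) (v : M) :
    (g : M →ₗ[k] M) (((g⁻¹ : LinearMap.GeneralLinearGroup k M) : M →ₗ[k] M) v) = v := by
  have h' : (g : M →ₗ[k] M) * ((g⁻¹ : LinearMap.GeneralLinearGroup k M) : M →ₗ[k] M) = 1 := by
    rw [← Units.val_mul]; simp
  exact congrArg (fun f : M →ₗ[k] M => f v) h'

/-- A nontrivial component group has no fixed points. -/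
theorem fixed_bot (hG : Cfsg.IsQuadraticPair G) (h2 : (2 : k) ≠ 0) (h3 : Nat.card k ≠ 3)
    {A : Subgroup (LinearMap.GeneralLinearGroup k M)} (hA : A ∈ Cfsg.quadraticRootSubgroups G) :
    Cfsg.fixedSubmodule (HH (cmp G A)) = ⊥ := by
  have hinv : ∀ g ∈ G, ∀ w ∈ Cfsg.fixedSubmodule (HH (cmp G A)),
      (g : M →ₗ[k] M) w ∈ Cfsg.fixedSubmodule (HH (cmp G A)) := by
    intro g hg w hw
    rw [mem_fixed_iff] at hw ⊢
    intro h hh
    have h4 := hw _ (conj_HH hG h2 h3 (G.inv_mem hg) hh)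
    rw [inv_inv] at h4
    have h5 := congrArg (g : M →ₗ[k] M) h4
    simp only [Units.val_mul, Module.End.mul_apply, apply_inv_apply] at h5
    exact h5
  rcases hG.1.2 _ hinv with h0 | h0
  · exact h0
  · exfalso
    obtain ⟨σ, hσ, rfl⟩ := id hA
    have hx := minLog_of_mem hσ
    apply hx.ne
    ext v
    have hv : v ∈ Cfsg.fixedSubmodule (HH (cmp G (Cfsg.sameActionSubgroup G σ))) := by
      rw [h0]
      trivial
    rw [mem_fixed_iff] at hv
    have := hv σ (le_HH (mem_cmp_self hA) (E_self hσ))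
    simp [this]

/-! ### Conjugacy inside a component -/

/-- Any two members of a component are conjugate under the component group. -/
theorem exists_conj_in_HH {A F : Subgroup (LinearMap.GeneralLinearGroup k M)} (hF : F ∈ cmp G A) :
    ∃ g ∈ HH (cmp G A), F = Cfsg.conjBy A g := by
  obtain ⟨hFS, hr⟩ := hF
  induction hr with
  | refl => exact ⟨1, Subgroup.one_mem _, (conjBy_one' A).symm⟩
  | @tail B C hAB hBC ih =>
    obtain ⟨g, hg, hBe⟩ := ih hBC.1
    have hBm : B ∈ cmp G A := ⟨hBC.1, hAB⟩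
    have hCm : C ∈ cmp G A := ⟨hBC.2.1, hAB.tail hBC⟩
    -- a non-identity element of `B`
    obtain ⟨σ, hσ, rfl⟩ := id hBC.1
    have hσ1 : σ ≠ 1 := by
      rintro rfl
      exact (minLog_of_mem hσ).ne (by simp [NN])
    obtain ⟨b, hb, _, hc⟩ := hBC.2.2.cond_left σ (E_self hσ) hσ1
    have h4 := (conj_iff (E_self hσ)).2 hc
    refine ⟨(σ * b⁻¹ * σ) * g, ?_, ?_⟩
    · refine Subgroup.mul_mem _ (Subgroup.mul_mem _ (Subgroup.mul_mem _ ?_ (Subgroup.inv_mem _ ?_)) ?_) hg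
      · exact le_HH hBm (E_self hσ)
      · exact le_HH hCm hb
      · exact le_HH hBm (E_self hσ)
    · rw [conjBy_mul, ← hBe, h4]

/-! ### Killing -/

/-- The kill lemma. -/
theorem kill (hG : Cfsg.IsQuadraticPair G) (h2 : (2 : k) ≠ 0) (h3 : Nat.card k ≠ 3)
    {A : Subgroup (LinearMap.GeneralLinearGroup k M)} (hA : A ∈ Cfsg.quadraticRootSubgroups G) {x₀ : M →ₗ[k] M}
    (hc : ∀ h ∈ HH (cmp G A), (h : M →ₗ[k] M) * x₀ = x₀ * h) (hk : ∀ a ∈ A, NN a * x₀ = 0) : x₀ = 0 := by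
  have key : ∀ B ∈ cmp G A, ∀ b ∈ B, NN b * x₀ = 0 := by
    intro B hB b hb
    obtain ⟨g, hg, rfl⟩ := exists_conj_in_HH hB
    obtain ⟨a, ha, rfl⟩ := hb
    have e : NN ((MulAut.conj g).toMonoidHom a) = cj g (NN a) := NN_conj g a
    rw [e]
    unfold cj
    have h4 := hc _ (Subgroup.inv_mem _ hg)
    calc (g : M →ₗ[k] M) * NN a * ((g⁻¹ : LinearMap.GeneralLinearGroup k M) : M →ₗ[k] M) * x₀
        = (g : M →ₗ[k] M) * NN a * (((g⁻¹ : LinearMap.GeneralLinearGroup k M) : M →ₗ[k] M) * x₀) := by rw [mul_assoc]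
      _ = (g : M →ₗ[k] M) * (NN a * x₀) * ((g⁻¹ : LinearMap.GeneralLinearGroup k M) : M →ₗ[k] M) := by
          rw [h4]; noncomm_ring
      _ = 0 := by rw [hk a ha]; simp
  ext v
  have h4 : x₀ v ∈ Cfsg.fixedSubmodule (HH (cmp G A)) := by
    apply mem_fixed_HH
    intro B hB b hb
    have h5 : (NN b * x₀) v = 0 := by rw [key B hB b hb]; rfl
    simpa [sub_eq_zero, NN] using h5
  rw [fixed_bot hG h2 h3 hA, Submodule.mem_bot] at h4
  simpa using h4

/-! ### Different components commute -/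

omit [FiniteDimensional k M] in
lemma comm_HH_of {L L' : Set (Subgroup (LinearMap.GeneralLinearGroup k M))}
    (h : ∀ A ∈ L, ∀ B ∈ L', ∀ a ∈ A, ∀ b ∈ B, a * b = b * a) : ∀ a ∈ HH L, ∀ b ∈ HH L', a * b = b * a := by
  have h1 : ∀ B ∈ L', ∀ b ∈ B, ∀ a ∈ HH L, a * b = b * a := by
    intro B hB b hb a ha
    have hle : HH L ≤ Subgroup.centralizer ({b} : Set (LinearMap.GeneralLinearGroup k M)) := by
      refine iSup₂_le ?_
      intro A hA x hx
      rw [Subgroup.mem_centralizer_singleton_iff]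
      exact h A hA B hB x hx b hb
    have := hle ha
    rw [Subgroup.mem_centralizer_singleton_iff] at this
    exact this
  intro a ha b hb
  have hle : HH L' ≤ Subgroup.centralizer ({a} : Set (LinearMap.GeneralLinearGroup k M)) := by
    refine iSup₂_le ?_
    intro B hB x hx
    rw [Subgroup.mem_centralizer_singleton_iff]
    exact (h1 B hB x hx a ha).symm
  have := hle hb
  rw [Subgroup.mem_centralizer_singleton_iff] at this
  exact this.symm

/-- Different components commute. -/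
theorem comm_HH (hG : Cfsg.IsQuadraticPair G) (h2 : (2 : k) ≠ 0) (h3 : Nat.card k ≠ 3)
    {A B : Subgroup (LinearMap.GeneralLinearGroup k M)} (hne : cmp G A ≠ cmp G B) :
    ∀ a ∈ HH (cmp G A), ∀ b ∈ HH (cmp G B), a * b = b * a := by
  apply comm_HH_of
  intro A' hA' B' hB' a ha b hb
  apply comm_of_commutator_bot _ ha hb
  by_contra h0
  apply hne
  have h1 := rtg_of_comm_ne hG h2 h3 hA'.1 hB'.1 h0
  rw [← cmp_eq_of_mem hA', ← cmp_eq_of_mem hB', cmp_eq h1]

omit [FiniteDimensional k M] in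
lemma comm_of_oa {x : M →ₗ[k] M} (hx : x * x = 0) {h : LinearMap.GeneralLinearGroup k M}
    (H : h * oa x hx 1 = oa x hx 1 * h) : (h : M →ₗ[k] M) * x = x * h := by
  have h1 := congrArg Units.val H
  simp only [Units.val_mul, oa_val, one_smul, mul_add, add_mul, mul_one, one_mul] at h1
  exact add_left_cancel h1

/-! ### Claim D -/

/-- **Every logarithm either lies in the radical or exponentiates into a component group.** -/
theorem claimD (hG : Cfsg.IsQuadraticPair G) (h2 : (2 : k) ≠ 0) (h3 : Nat.card k ≠ 3) :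
    ∀ (n : ℕ) (x : M →ₗ[k] M) (hx : LogZ G x), rk x = n →
      Rad G x ∨ ∃ A ∈ Cfsg.quadraticRootSubgroups G, oa x hx.sq 1 ∈ HH (cmp G A) := by
  intro n
  induction n using Nat.strong_induction_on with
  | _ n ih =>
    intro x hx hn
    by_cases hr : Rad G x
    · exact Or.inl hr
    right
    by_cases hx0 : x = 0
    · subst hx0
      exact absurd (fun y _ => by simp) hr
    unfold Rad at hr
    push Not at hr
    obtain ⟨y, hy, hne⟩ := hr
    obtain ⟨x₁, x₀, h1, h0, rfl, h10, h01, hlt⟩ := decomp h2 h3 (hx.toLogQ hx0) hy hne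
    refine ⟨Ez h1, Ez_mem h1, ?_⟩
    rw [oa_add h1.sq h0.sq h10 hx.sq]
    refine Subgroup.mul_mem _ (le_HH (mem_cmp_self (Ez_mem h1)) (E_self (mem_of_minLog h1))) ?_
    have hk : ∀ a ∈ Ez h1, NN a * x₀ = 0 := by
      intro a ha
      have h4 := (mem_E_iff (mem_of_minLog h1)).1 ha
      have h6 : LinearMap.ker (NN (oa x₁ h1.sq 1)) ≤ LinearMap.ker (NN a) :=
        LL_ker_le (minLog_of_mem (mem_of_minLog h1)) h4
      rw [NN_oa] at h6
      ext v
      have h7 : x₀ v ∈ LinearMap.ker x₁ := congrArg (fun F : M →ₗ[k] M => F v) h10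
      exact h6 h7
    have hzero : ∀ (hc : ∀ h ∈ HH (cmp G (Ez h1)), (h : M →ₗ[k] M) * x₀ = x₀ * h),
        oa x₀ h0.sq 1 ∈ HH (cmp G (Ez h1)) := by
      intro hc
      have h5 := kill hG h2 h3 (Ez_mem h1) hc hk
      have : oa x₀ h0.sq 1 = 1 := by
        apply Units.ext
        simp [h5]
      rw [this]
      exact Subgroup.one_mem _
    rcases ih (rk x₀) (by omega) x₀ h0 rfl with hR | ⟨A, hA, hm⟩
    · apply hzero
      intro h hh
      apply comm_of_oa h0.sq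
      have hc := oa_centralizes hG h2 h3 h0 hR
      exact (Subgroup.mem_centralizer_iff.1 hc h (iSup₂_le (fun B hB => le_G0 hB.1) hh)).symm ▸ rfl
    · by_cases he : cmp G A = cmp G (Ez h1)
      · rwa [← he]
      · apply hzero
        intro h hh
        apply comm_of_oa h0.sq
        exact (comm_HH hG h2 h3 he _ hm _ hh).symm

end Cfsg.Agent.Lib.QuadMain.Conn
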