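import Cfsg.Agent.Lib.QuadMain.Log
import Mathlib

/-!
# Decomposition of a logarithm with respect to a minimal logarithm
-/

set_option autoImplicit false
set_option linter.unusedSectionVars false
set_option linter.unusedVariables false

namespace Cfsg.Agent.Lib.QuadMain.Decomp

open Polynomial
open Cfsg.Agent.Lib.Linalg.Quad.Dich Cfsg.Agent.Lib.Linalg.Quad.Psi Cfsg.Agent.Lib.Linalg.Quad.Root
  Cfsg.Agent.Lib.Linalg.Quad.Pair Cfsg.Agent.Lib.Linalg.Quad.NType Cfsg.Agent.Lib.Linalg.Quad.UType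
  Cfsg.Agent.Lib.Linalg.Quad.Surj Cfsg.Agent.Lib.Linalg.Quad.Elems
open Cfsg.Agent.Lib.QuadMain.Log

variable {k : Type*} [Field k] {M : Type*} [AddCommGroup M] [Module k M] [FiniteDimensional k M]
  {G : Subgroup (LinearMap.GeneralLinearGroup k M)}

/-- The rank of a sandwich with an injective map. -/
lemma rk_le_of_ker {y P : M →ₗ[k] M} (h : LinearMap.ker P ≤ LinearMap.ker y) : rk y ≤ rk P := by
  unfold rk
  have h1 := LinearMap.finrank_range_add_finrank_ker y
  have h2 := LinearMap.finrank_range_add_finrank_ker P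
  have h3 := Submodule.finrank_mono h
  omega

omit [FiniteDimensional k M] in
/-- Exact-free sandwich inequality. -/
lemma ker_sandwich {y P : M →ₗ[k] M} (h : NTy y P) : LinearMap.ker (y * P * y) ≤ LinearMap.ker y := by
  intro u hu
  have h1 : y (P (y u)) = 0 := hu
  have h2 : P (y u) = 0 := h.inj_y _ ⟨_, rfl⟩ h1
  exact h.inj_x _ ⟨_, rfl⟩ h2

omit [FiniteDimensional k M] in
lemma range_neg' (P : M →ₗ[k] M) : rk (-P) = rk P := by
  unfold rk
  rw [LinearMap.range_neg]

/-- If `T` is nilpotent the minimal logarithm is killed by `T`. -/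
theorem lemU' (h2 : (2 : k) ≠ 0) (h3 : Nat.card k ≠ 3) {x y : M →ₗ[k] M} (hx : LogZ G x) (hy : MinLog G y) {n : ℕ}
    (hn : TT x y ^ n = 0) : y * x * y = 0 := by
  have hxx := hx.sq
  have hyy := hy.sq
  have hcy : Commute (TT x y) y := comm_y hxx hyy
  have hTy : TT x y * y = y * x * y := TT_mul_y hxx hyy
  -- the conjugates are minimal
  have hP : MinLog G (y + (x * y - y * x) - x * y * x) := by
    rw [← cj_p x y hxx]
    exact minLog_cj hy (hx.oa_mem 1)
  have hQ : MinLog G (y - (x * y - y * x) - x * y * x) := by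
    rw [← cj_m x y hxx]
    exact minLog_cj hy (hx.oa_mem (-1))
  obtain ⟨P, hPd⟩ : ∃ P, P = y + (x * y - y * x) - x * y * x := ⟨_, rfl⟩
  obtain ⟨Q, hQd⟩ : ∃ Q, Q = y - (x * y - y * x) - x * y * x := ⟨_, rfl⟩
  rw [← hPd] at hP
  rw [← hQd] at hQ
  have eT2 : TT x y ^ 2 * y = y * x * y * x * y := by
    rw [pow_two, mul_assoc, hTy]
    calc TT x y * (y * x * y) = (TT x y * y) * x * y := by noncomm_ring
      _ = _ := by rw [hTy]
  have eP : y * P * y = -(TT x y ^ 2 * y) := by
    rw [eT2, hPd]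
    have e : y * (y + (x * y - y * x) - x * y * x) * y =
        (y * y) * y + y * x * (y * y) - (y * y) * x * y - y * x * y * x * y := by noncomm_ring
    rw [e, hyy]
    simp
  have eQ : y * Q * y = -(TT x y ^ 2 * y) := by
    rw [eT2, hQd]
    have e : y * (y - (x * y - y * x) - x * y * x) * y =
        (y * y) * y - y * x * (y * y) + (y * y) * x * y - y * x * y * x * y := by noncomm_ring
    rw [e, hyy]
    simp
  have hlt2 := rk_pow_mul_lt hy.ne hcy hn (e := 2) (by norm_num)
  have hNP : ¬ NTy y P := by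
    intro hN
    have h5 := rk_le_of_ker (ker_sandwich hN)
    rw [eP, range_neg'] at h5
    omega
  have hNQ : ¬ NTy y Q := by
    intro hN
    have h5 := rk_le_of_ker (ker_sandwich hN)
    rw [eQ, range_neg'] at h5
    omega
  obtain ⟨p1, p2⟩ := (pair_dich h2 h3 hy hP).resolve_left hNP
  obtain ⟨q1, q2⟩ := (pair_dich h2 h3 hy hQ).resolve_left hNQ
  have hT2 : y * x * y * x * y = 0 := by
    rw [← eT2]
    have := eP
    rw [p1] at this
    exact neg_eq_zero.1 this.symm
  have PP : UPair G y P := ⟨hy, hP, p1, p2⟩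
  have PQ : UPair G y Q := ⟨hy, hQ, q1, q2⟩
  obtain ⟨w, hw⟩ : ∃ w, w = y * x * y := ⟨_, rfl⟩
  obtain ⟨v, hv⟩ : ∃ v, v = x * w - w * x := ⟨_, rfl⟩
  have ez1 : zz y P = (2 : k) • w + v := by
    rw [hv, hw, hPd, two_smul]
    have e : zz y (y + (x * y - y * x) - x * y * x) = (y * x * y + y * x * y) + (x * (y * x * y) - y * x * y * x) -
        (y * y) * x - x * (y * y) := by
      unfold zz; noncomm_ring
    rw [e, hyy]
    simp
  have ez2 : zz y Q = -((2 : k) • w) + v := by
    rw [hv, hw, hQd, two_smul]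
    have e : zz y (y - (x * y - y * x) - x * y * x) = -(y * x * y + y * x * y) + (x * (y * x * y) - y * x * y * x) +
        (y * y) * x + x * (y * y) := by
      unfold zz; noncomm_ring
    rw [e, hyy]
    simp
  have hww : w * w = 0 := by
    rw [hw]
    calc y * x * y * (y * x * y) = y * x * (y * y) * x * y := by noncomm_ring
      _ = 0 := by rw [hyy]; simp
  have hwxw : w * x * w = 0 := by
    rw [hw]
    calc y * x * y * x * (y * x * y) = (y * x * y * x * y) * x * y := by noncomm_ring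
      _ = 0 := by rw [hT2]; simp
  have hwv : w * v = 0 := by
    rw [hv]
    calc w * (x * w - w * x) = w * x * w - (w * w) * x := by noncomm_ring
      _ = 0 := by rw [hwxw, hww]; simp
  have hvw : v * w = 0 := by
    rw [hv]
    calc (x * w - w * x) * w = x * (w * w) - w * x * w := by noncomm_ring
      _ = 0 := by rw [hwxw, hww]; simp
  have hvv : v * v = 0 := by
    rw [hv]
    calc (x * w - w * x) * (x * w - w * x) = x * (w * x * w) - x * (w * w) * x - w * (x * x) * w + (w * x * w) * x := by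
          noncomm_ring
      _ = 0 := by rw [hwxw, hww, hxx]; simp
  have hL1 : LogZ G (zz y P) := by
    by_cases h0 : zz y P = 0
    · rw [h0]; exact logZ_zero
    · exact LogQ.toLogZ (PP.logQ_z h0)
  have hL2 : LogZ G (zz y Q) := by
    by_cases h0 : zz y Q = 0
    · rw [h0]; exact logZ_zero
    · exact LogQ.toLogZ (PQ.logQ_z h0)
  have h12 : zz y P * zz y Q = 0 := by
    rw [ez1, ez2]
    simp only [add_mul, mul_add, neg_mul, mul_neg, smul_mul_assoc, mul_smul_comm, hww, hwv, hvw, hvv]
    simp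
  have h21 : zz y Q * zz y P = 0 := by
    rw [ez1, ez2]
    simp only [add_mul, mul_add, neg_mul, mul_neg, smul_mul_assoc, mul_smul_comm, hww, hwv, hvw, hvv]
    simp
  have hL : LogZ G w := by
    have h4 := (hL1.sub hL2 h12 h21).smul ((2 : k)⁻¹ * (2 : k)⁻¹)
    convert h4 using 1
    rw [ez1, ez2]
    have e : (2 : k) • w + v - (-((2 : k) • w) + v) = (2 : k) • (2 : k) • w := by
      rw [two_smul (R := k) ((2 : k) • w)]; abel
    rw [e, smul_smul, smul_smul]
    field_simp
    simp
  by_contra hne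
  have hw0 : w ≠ 0 := by rw [hw]; exact hne
  have h5 := hy.min w (hL.toLogQ hw0)
  have hlt1 := rk_pow_mul_lt hy.ne hcy hn (e := 1) (by norm_num)
  rw [pow_one, hTy, ← hw] at hlt1
  omega

/-- **Decomposition.** -/
theorem decomp (h2 : (2 : k) ≠ 0) (h3 : Nat.card k ≠ 3) {x y : M →ₗ[k] M} (hx : LogQ G x) (hy : MinLog G y)
    (hne : y * x * y ≠ 0) :
    ∃ x₁ x₀ : M →ₗ[k] M, MinLog G x₁ ∧ LogZ G x₀ ∧ x = x₁ + x₀ ∧ x₁ * x₀ = 0 ∧ x₀ * x₁ = 0 ∧ rk x₀ < rk x := by
  have hxx := hx.sq
  have hyy := hy.sq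
  have hn : ∀ n : ℕ, TT y x ^ n ≠ 0 := by
    intro n h0
    rw [TT_comm] at h0
    exact hne (lemU' h2 h3 (LogQ.toLogZ hx) hy h0)
  obtain ⟨f, hf, hXf, hfy⟩ := lemN_one h2 h3 hy hx hn
  have hS : aeval (TT y x) (X * f) = 0 := S_X_mul hyy hxx hfy
  have hcop : IsCoprime X f := ((hf.coprime_iff_not_dvd).2 (fun hd =>
    hXf ((hf.associated_of_dvd irreducible_X hd).symm.dvd))).symm
  obtain ⟨r, s, hr⟩ := hcop
  have hr0 : r ≠ 0 := by
    rintro rfl
    have : s * f = 1 := by simpa using hr
    exact hf.not_isUnit (IsUnit.of_mul_eq_one _ (by rwa [mul_comm] at this))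
  obtain ⟨T, hT⟩ : ∃ T, T = TT y x := ⟨_, rfl⟩
  obtain ⟨π, hπ⟩ : ∃ π, π = aeval (TT y x) (r * X) := ⟨_, rfl⟩
  have hπp : aeval (TT y x) (X * (X * r ^ 2)) = π := by
    rw [hπ]
    have e : X * (X * r ^ 2) = r * X + (- (r * s)) * (X * f) := by linear_combination (r * X) * hr
    rw [e, map_add, map_mul _ (- (r * s)), hS, mul_zero, add_zero]
  have hπ2 : π * π = π := by
    rw [hπ, ← map_mul]
    have e : r * X * (r * X) = r * X + (- (r * s)) * (X * f) := by linear_combination (r * X) * hr
    rw [e, map_add, map_mul _ (- (r * s)), hS, mul_zero, add_zero]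
  have hπy : π * y = y := by
    have e : r * X = 1 - s * f := by linear_combination hr
    rw [hπ, e, map_sub, map_one, sub_mul, one_mul, map_mul, mul_assoc, hfy, mul_zero, sub_zero]
  have hcx : Commute π x := by
    rw [hπ]; exact SS_comm_y k hyy hxx _
  have hcy : Commute π y := by
    rw [hπ]; exact SS_comm_x k hyy hxx _
  have hxπ : x * π = π * x := hcx.eq.symm
  have hyπ : y * π = y := by rw [← hcy.eq, hπy]
  have hx1sq : (π * x) * (π * x) = 0 := by
    calc (π * x) * (π * x) = π * (x * π) * x := by noncomm_ring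
      _ = (π * π) * (x * x) := by rw [hxπ]; noncomm_ring
      _ = 0 := by rw [hxx, mul_zero]
  have hx1L : LogZ G (π * x) := by
    refine ⟨hx1sq, fun c u hu => ?_⟩
    have hm₁ : X * r ^ 2 ≠ 0 := mul_ne_zero X_ne_zero (pow_ne_zero _ hr0)
    obtain ⟨h, hh, he⟩ := exists_top h2 h3 hf hXf (X * r ^ 2) hm₁ c
    obtain ⟨v, hv, hv'⟩ := exists_unit_of_gam hx hy.toLogQ hh
    have hent := gam_entries hh
    have hm : aeval (TT x y) (f * (X * r ^ 2)) = 0 := by
      rw [TT_comm, show f * (X * r ^ 2) = X * f * r ^ 2 by ring, map_mul, hS, zero_mul]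
    have hcongr := psiV_congr hm he hent.1 (by simp) hent.2.1 (by simp)
    have huv : u = v := by
      apply Units.ext
      rw [hu, hv', hcongr, psiV_x, map_mul (aeval (TT x y)) (C c), aeval_C, Algebra.algebraMap_eq_smul_one,
        smul_mul_assoc, smul_mul_assoc, one_mul, TT_comm, hπp]
    rw [huv]
    exact hv
  have hsand : y * (π * x) * y = y * x * y := by
    rw [← mul_assoc y, hyπ]
  have hx1ne : π * x ≠ 0 := by
    intro h0
    rw [h0] at hsand
    apply hne
    rw [← hsand]
    simp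
  have hrk : rk (π * x) ≤ rk y := by
    have h5 := Cfsg.Agent.Lib.Linalg.Quad.UType.finrank_map_add_inf (LinearMap.range (π * x)) y
    have h6 : (LinearMap.range (π * x) ⊓ LinearMap.ker y : Submodule k M) = ⊥ := by
      rw [eq_bot_iff]
      rintro v ⟨⟨u, rfl⟩, hv⟩
      have hv' : y ((π * x) u) = 0 := hv
      have hxv : x ((π * x) u) = 0 := by
        have : x * (π * x) = 0 := by
          rw [← mul_assoc, hxπ, mul_assoc, hxx, mul_zero]
        exact congrArg (fun F : M →ₗ[k] M => F u) this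
      have hTv : TT y x ((π * x) u) = 0 := by
        show y (x _) + x (y _) = 0
        rw [hxv, hv']
        simp
      have hπv : π ((π * x) u) = (π * x) u := by
        have : π * (π * x) = π * x := by rw [← mul_assoc, hπ2]
        exact congrArg (fun F : M →ₗ[k] M => F u) this
      have hπ0 : π ((π * x) u) = 0 := by
        have eπ : π = aeval (TT y x) r * TT y x := by rw [hπ, map_mul, aeval_X]
        have key : ∀ w, π w = aeval (TT y x) r (TT y x w) := by
          intro w
          rw [eπ]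
          rfl
        rw [key, hTv, map_zero]
      rw [Submodule.mem_bot, ← hπv, hπ0]
    rw [h6, finrank_bot, add_zero] at h5
    unfold rk
    rw [← h5]
    exact Submodule.finrank_mono (by
      rintro _ ⟨v, _, rfl⟩
      exact ⟨v, rfl⟩)
  have hx1min : MinLog G (π * x) := minLog_of_logZ hx1L hx1ne hy hrk
  have hxx1 : x * (π * x) = 0 := by rw [← mul_assoc, hxπ, mul_assoc, hxx, mul_zero]
  have hx1x : (π * x) * x = 0 := by rw [mul_assoc, hxx, mul_zero]
  refine ⟨π * x, x - π * x, hx1min, (LogQ.toLogZ hx).sub hx1L hxx1 hx1x, by abel, ?_, ?_, ?_⟩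
  · rw [mul_sub, hx1x, hx1sq, sub_zero]
  · rw [sub_mul, hxx1, hx1sq, sub_zero]
  · by_contra hcon
    push Not at hcon
    have hle : LinearMap.range (x - π * x) ≤ LinearMap.range x := by
      rintro _ ⟨u, rfl⟩
      refine ⟨u - π u, ?_⟩
      have : x * (1 - π) = x - π * x := by rw [mul_sub, mul_one, hxπ]
      exact congrArg (fun F : M →ₗ[k] M => F u) this
    have heq := Submodule.eq_of_le_of_finrank_le hle hcon
    apply hx1ne
    ext u
    have hu : x u ∈ LinearMap.range (x - π * x) := by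
      rw [heq]
      exact ⟨u, rfl⟩
    obtain ⟨w, hw⟩ := hu
    show π (x u) = 0
    rw [← hw]
    have : π * (x - π * x) = 0 := by
      rw [mul_sub, ← mul_assoc, hπ2, sub_self]
    exact congrArg (fun F : M →ₗ[k] M => F w) this

end Cfsg.Agent.Lib.QuadMain.Decomp
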