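import Cfsg.Agent.Lib.QuadMain.Rest
import Mathlib

/-!
# The descent to a minimal subspace for the radical part
-/

set_option autoImplicit false
set_option linter.unusedSectionVars false
set_option linter.unusedVariables false

namespace Cfsg.Agent.Lib.QuadMain.Descent

open Cfsg.Agent.Lib.Linalg.Quad.Dich Cfsg.Agent.Lib.Linalg.Quad.Root
  Cfsg.Agent.Lib.Linalg.Quad.Pair Cfsg.Agent.Lib.Linalg.Quad.NType Cfsg.Agent.Lib.Linalg.Quad.UType
  Cfsg.Agent.Lib.Linalg.Quad.Surj Cfsg.Agent.Lib.Linalg.Quad.RootSet Cfsg.Agent.Lib.Linalg.Quad.SL2Rep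
  Cfsg.Agent.Lib.Linalg.Quad.Class2
open Cfsg.Agent.Lib.QuadMain.Log Cfsg.Agent.Lib.QuadMain.Decomp Cfsg.Agent.Lib.QuadMain.Cocentral
  Cfsg.Agent.Lib.QuadMain.Conn Cfsg.Agent.Lib.QuadMain.Cliff Cfsg.Agent.Lib.QuadMain.Quasi
  Cfsg.Agent.Lib.QuadMain.Rest

universe u

/-! ### Pulling back along an injective homomorphism -/

section Phi

variable {Γ Γ' : Type*} [Group Γ] [Group Γ'] {K : Subgroup Γ} (r : ↥K →* Γ')

/-- The pull-back. -/
def phi (X : Subgroup Γ') : Subgroup Γ := (X.comap r).map K.subtype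

lemma mem_phi {X : Subgroup Γ'} {z : Γ} : z ∈ phi r X ↔ ∃ hz : z ∈ K, r ⟨z, hz⟩ ∈ X := by
  constructor
  · rintro ⟨g, hg, rfl⟩
    exact ⟨g.2, hg⟩
  · rintro ⟨hz, h⟩
    exact ⟨⟨z, hz⟩, h, rfl⟩

lemma phi_le (X : Subgroup Γ') : phi r X ≤ K := by
  rintro _ ⟨g, _, rfl⟩
  exact g.2

lemma phi_conj {X : Subgroup Γ'} (h : ∀ g : K, Cfsg.conjBy X (r g) = X) {g z : Γ} (hg : g ∈ K) (hz : z ∈ phi r X) :
    g * z * g⁻¹ ∈ phi r X := by
  obtain ⟨hz', hm⟩ := (mem_phi r).1 hz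
  refine (mem_phi r).2 ⟨K.mul_mem (K.mul_mem hg hz') (K.inv_mem hg), ?_⟩
  have h1 := mem_of_conjBy (h ⟨g, hg⟩) hm
  have e : (⟨g * z * g⁻¹, K.mul_mem (K.mul_mem hg hz') (K.inv_mem hg)⟩ : K) = ⟨g, hg⟩ * ⟨z, hz'⟩ * ⟨g, hg⟩⁻¹ := rfl
  rw [e, map_mul, map_mul, map_inv]
  exact h1

lemma phi_comm (hinj : Function.Injective r) {X Y : Subgroup Γ'} (h : ⁅X, Y⁆ = ⊥) : ⁅phi r X, phi r Y⁆ = ⊥ := by
  apply commutator_bot_of_comm
  intro a ha b hb
  obtain ⟨ha', hma⟩ := (mem_phi r).1 ha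
  obtain ⟨hb', hmb⟩ := (mem_phi r).1 hb
  have h1 := comm_of_commutator_bot h hma hmb
  have h4 : (⟨a, ha'⟩ : K) * ⟨b, hb'⟩ = ⟨b, hb'⟩ * ⟨a, ha'⟩ := by
    apply hinj
    rw [map_mul, map_mul, h1]
  exact congrArg Subtype.val h4

lemma phi_sup (hinj : Function.Injective r) {F : Set (Subgroup Γ')} (hF : (⨆ X ∈ F, X) = r.range) :
    (⨆ Z ∈ (phi r) '' F, Z) = K := by
  apply le_antisymm
  · refine iSup₂_le ?_
    rintro _ ⟨X, _, rfl⟩
    exact phi_le r X
  · intro g hg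
    have hm : r ⟨g, hg⟩ ∈ ⨆ X ∈ F, X := by
      rw [hF]
      exact ⟨_, rfl⟩
    have hle : (⨆ X ∈ F, X) ≤ ((⨆ Z ∈ (phi r) '' F, Z).subgroupOf K).map r := by
      refine iSup₂_le (fun X hX x hx => ?_)
      have hxR : x ∈ r.range := by
        rw [← hF]
        exact (le_iSup₂_of_le (f := fun (X : Subgroup Γ') (_ : X ∈ F) => X) X hX le_rfl : X ≤ _) hx
      obtain ⟨h, rfl⟩ := hxR
      refine ⟨h, ?_, rfl⟩
      rw [SetLike.mem_coe, Subgroup.mem_subgroupOf]
      exact (le_iSup₂_of_le (f := fun (Z : Subgroup Γ) (_ : Z ∈ (phi r) '' F) => Z) (phi r X) ⟨X, hX, rfl⟩ le_rfl : phi r X ≤ _)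
        ((mem_phi r).2 ⟨h.2, hx⟩)
    obtain ⟨h, hh, he⟩ := hle hm
    have := hinj he
    rw [SetLike.mem_coe, Subgroup.mem_subgroupOf, this] at hh
    exact hh

/-- The pull-back is isomorphic to the subgroup. -/
lemma phi_equiv (hinj : Function.Injective r) {X : Subgroup Γ'} (hX : X ≤ r.range) : Nonempty (↥X ≃* ↥(phi r X)) := by
  have e1 : ↥(X.comap r) ≃* ↥(phi r X) := Subgroup.equivMapOfInjective _ _ K.subtype_injective
  have e2 : ↥(X.comap r) ≃* ↥((X.comap r).map r) := Subgroup.equivMapOfInjective _ _ hinj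
  have e3 : ↥((X.comap r).map r) ≃* ↥X := MulEquiv.subgroupCongr (Subgroup.map_comap_eq_self hX)
  exact ⟨(e2.trans e3).symm.trans e1⟩

end Phi

/-! ### Restriction to an invariant subspace -/

section Res

variable {k : Type*} [Field k] {M : Type*} [AddCommGroup M] [Module k M]

/-- The restriction, as a homomorphism to the endomorphisms. -/
def resHom (X : Subgroup (LinearMap.GeneralLinearGroup k M)) (W : Submodule k M) (hW : Inv X W) :
    ↥X →* Module.End k ↥W where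
  toFun g := LinearMap.restrict (g.1 : M →ₗ[k] M) (hW g.1 g.2)
  map_one' := by
    ext w
    simp
  map_mul' := by
    intro a b
    ext w
    simp

/-- The restriction. -/
noncomputable def rho (X : Subgroup (LinearMap.GeneralLinearGroup k M)) (W : Submodule k M) (hW : Inv X W) :
    ↥X →* LinearMap.GeneralLinearGroup k ↥W :=
  (resHom X W hW).toHomUnits

lemma rho_apply (X : Subgroup (LinearMap.GeneralLinearGroup k M)) (W : Submodule k M) (hW : Inv X W) (g : ↥X) (w : ↥W) :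
    (((rho X W hW g : LinearMap.GeneralLinearGroup k ↥W) : ↥W →ₗ[k] ↥W) w : M) = (g.1 : M →ₗ[k] M) w.1 := rfl

lemma coe_NN_rho (X : Subgroup (LinearMap.GeneralLinearGroup k M)) (W : Submodule k M) (hW : Inv X W) (g : ↥X) (w : ↥W) :
    ((NN (rho X W hW g) w : ↥W) : M) = NN g.1 w.1 := by
  simp only [NN, LinearMap.sub_apply, Module.End.one_apply, Submodule.coe_sub, rho_apply]

/-- The stabilizer of a subspace. -/
def stabS (S : Submodule k M) : Subgroup (LinearMap.GeneralLinearGroup k M) where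
  carrier := {g | (∀ w ∈ S, (g : M →ₗ[k] M) w ∈ S) ∧ (∀ w ∈ S, ((g⁻¹ : LinearMap.GeneralLinearGroup k M) : M →ₗ[k] M) w ∈ S)}
  mul_mem' := by
    rintro a b ⟨ha, ha'⟩ ⟨hb, hb'⟩
    refine ⟨fun w hw => ha _ (hb w hw), fun w hw => ?_⟩
    rw [mul_inv_rev]
    exact hb' _ (ha' w hw)
  one_mem' := by simp
  inv_mem' := by
    rintro a ⟨ha, ha'⟩
    refine ⟨ha', ?_⟩
    rwa [inv_inv]

end Res

section Main

variable {k : Type u} [Field k] {M : Type*} [AddCommGroup M] [Module k M] [FiniteDimensional k M]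
  {G : Subgroup (LinearMap.GeneralLinearGroup k M)}

/-- The translates of a minimal subspace under `G₀` span. -/
theorem S_top (hG : Cfsg.IsQuadraticPair G) (h2 : (2 : k) ≠ 0) (h3 : Nat.card k ≠ 3) {W : Submodule k M}
    (hW : MinInv (G1 G) W) :
    (⨆ (h : LinearMap.GeneralLinearGroup k M) (_ : h ∈ G0 G), tw h W) = ⊤ := by
  obtain ⟨S, hSd⟩ : ∃ S, S = ⨆ (h : LinearMap.GeneralLinearGroup k M) (_ : h ∈ G0 G), tw h W := ⟨_, rfl⟩
  rw [← hSd]
  have hmemS : ∀ h ∈ G0 G, tw h W ≤ S := by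
    intro h hh
    rw [hSd]
    exact le_iSup₂_of_le (f := fun (h : LinearMap.GeneralLinearGroup k M) (_ : h ∈ G0 G) => tw h W) h hh le_rfl
  have hSne : S ≠ ⊥ := by
    intro h0
    apply hW.ne
    rw [eq_bot_iff, ← h0]
    intro v hv
    have h1 : v ∈ tw 1 W := by
      rw [mem_tw]
      simpa using hv
    exact hmemS 1 (Subgroup.one_mem _) h1
  have hinv0 : ∀ g ∈ G0 G, ∀ w ∈ S, (g : M →ₗ[k] M) w ∈ S := by
    intro g hg w hw
    have h1 : S ≤ S.comap (g : M →ₗ[k] M) := by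
      rw [hSd]
      refine iSup₂_le (fun h hh => ?_)
      rw [← hSd]
      rintro _ ⟨u, hu, rfl⟩
      show (g : M →ₗ[k] M) ((h : M →ₗ[k] M) u) ∈ S
      have h2' : (g : M →ₗ[k] M) ((h : M →ₗ[k] M) u) ∈ tw (g * h) W := by
        rw [mem_tw]
        simp only [mul_inv_rev, Units.val_mul, Module.End.mul_apply, inv_apply_apply]
        exact hu
      exact hmemS _ (Subgroup.mul_mem _ hg hh) h2'
    exact h1 hw
  have hinv1 : ∀ g ∈ G1 G, ∀ w ∈ S, (g : M →ₗ[k] M) w ∈ S := by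
    intro g hg w hw
    have h1 : S ≤ S.comap (g : M →ₗ[k] M) := by
      rw [hSd]
      refine iSup₂_le (fun h hh => ?_)
      rw [← hSd]
      rintro _ ⟨u, hu, rfl⟩
      show (g : M →ₗ[k] M) ((h : M →ₗ[k] M) u) ∈ S
      have h4 := congrArg Units.val (G1_comm hG h2 h3 hg hh)
      simp only [Units.val_mul] at h4
      have h5 : (g : M →ₗ[k] M) ((h : M →ₗ[k] M) u) = (h : M →ₗ[k] M) ((g : M →ₗ[k] M) u) :=
        congrArg (fun F : M →ₗ[k] M => F u) h4
      rw [h5]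
      exact hmemS h hh (apply_mem_tw (hW.inv g hg u hu))
    exact h1 hw
  have hle : G ≤ stabS S := by
    conv_lhs => rw [← G0_sup_G1 hG h2 h3]
    refine sup_le (fun g hg => ⟨hinv0 g hg, hinv0 _ (Subgroup.inv_mem _ hg)⟩)
      (fun g hg => ⟨hinv1 g hg, hinv1 _ (Subgroup.inv_mem _ hg)⟩)
  exact (hG.1.2 S (fun g hg => (hle hg).1)).resolve_left hSne

/-- An endomorphism commuting with `G₀` and vanishing on the minimal subspace vanishes. -/
theorem ext_zero (hG : Cfsg.IsQuadraticPair G) (h2 : (2 : k) ≠ 0) (h3 : Nat.card k ≠ 3) {W : Submodule k M}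
    (hW : MinInv (G1 G) W) {a : M →ₗ[k] M} (hc : ∀ h ∈ G0 G, a * (h : M →ₗ[k] M) = (h : M →ₗ[k] M) * a)
    (h0 : ∀ m ∈ W, a m = 0) : a = 0 := by
  have hle : (⨆ (h : LinearMap.GeneralLinearGroup k M) (_ : h ∈ G0 G), tw h W) ≤ LinearMap.ker a := by
    refine iSup₂_le (fun h hh => ?_)
    rintro _ ⟨u, hu, rfl⟩
    have h4 : a ((h : M →ₗ[k] M) u) = (h : M →ₗ[k] M) (a u) := congrArg (fun F : M →ₗ[k] M => F u) (hc h hh)
    show a ((h : M →ₗ[k] M) u) = 0
    rw [h4, h0 u hu, map_zero]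
  rw [S_top hG h2 h3 hW] at hle
  ext v
  exact hle (Submodule.mem_top (x := v))

lemma comm_G0 (hG : Cfsg.IsQuadraticPair G) (h2 : (2 : k) ≠ 0) (h3 : Nat.card k ≠ 3)
    {g a : LinearMap.GeneralLinearGroup k M} (hg : g ∈ G1 G) (ha : a ∈ G0 G) :
    (g : M →ₗ[k] M) * (a : M →ₗ[k] M) = (a : M →ₗ[k] M) * (g : M →ₗ[k] M) := by
  have := congrArg Units.val (G1_comm hG h2 h3 hg ha)
  simpa only [Units.val_mul] using this

lemma commNN_G0 (hG : Cfsg.IsQuadraticPair G) (h2 : (2 : k) ≠ 0) (h3 : Nat.card k ≠ 3)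
    {g a : LinearMap.GeneralLinearGroup k M} (hg : g ∈ G1 G) (ha : a ∈ G0 G) :
    NN g * (a : M →ₗ[k] M) = (a : M →ₗ[k] M) * NN g := by
  simp only [NN, sub_mul, mul_sub, mul_one, one_mul]
  rw [comm_G0 hG h2 h3 hg ha]

/-- The restriction is faithful. -/
theorem rho_inj (hG : Cfsg.IsQuadraticPair G) (h2 : (2 : k) ≠ 0) (h3 : Nat.card k ≠ 3) {W : Submodule k M}
    (hW : MinInv (G1 G) W) : Function.Injective (rho (G1 G) W hW.inv) := by
  rw [injective_iff_map_eq_one]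
  intro g hg
  have h4 : NN g.1 = 0 := by
    apply ext_zero hG h2 h3 hW (fun h hh => commNN_G0 hG h2 h3 g.2 hh)
    intro m hm
    have e := coe_NN_rho (G1 G) W hW.inv g ⟨m, hm⟩
    rw [hg] at e
    simp only [NN, Units.val_one, sub_self, LinearMap.zero_apply, ZeroMemClass.coe_zero] at e
    exact e.symm
  exact Subtype.ext (NN_eq_zero h4)

/-- Lifting of quadratic elements. -/
theorem lift_Q (hG : Cfsg.IsQuadraticPair G) (h2 : (2 : k) ≠ 0) (h3 : Nat.card k ≠ 3) {W : Submodule k M}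
    (hW : MinInv (G1 G) W) (g : ↥(G1 G))
    (hg : rho (G1 G) W hW.inv g ∈ Cfsg.quadraticElements (rho (G1 G) W hW.inv).range) :
    g.1 ∈ Cfsg.quadraticElements G := by
  obtain ⟨-, ⟨hsq, hne⟩, hsF⟩ := hg
  have hx : NN g.1 * NN g.1 = 0 := by
    apply ext_zero hG h2 h3 hW
    · intro h hh
      rw [mul_assoc, commNN_G0 hG h2 h3 g.2 hh, ← mul_assoc, commNN_G0 hG h2 h3 g.2 hh, mul_assoc]
    · intro m hm
      have e := congrArg (fun F : ↥W →ₗ[k] ↥W => ((F ⟨m, hm⟩ : ↥W) : M)) hsq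
      simp only [LinearMap.zero_apply, ZeroMemClass.coe_zero] at e
      rw [Module.End.mul_apply]
      rw [← e]
      simp only [Module.End.mul_apply]
      rw [show ((rho (G1 G) W hW.inv g : LinearMap.GeneralLinearGroup k ↥W) : ↥W →ₗ[k] ↥W) - 1 = NN (rho (G1 G) W hW.inv g) from rfl]
      rw [coe_NN_rho, coe_NN_rho]
  have hx0 : NN g.1 ≠ 0 := by
    intro h0
    apply hne
    ext w
    have e := coe_NN_rho (G1 G) W hW.inv g w
    rw [h0] at e
    simpa using e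
  refine ⟨G1_le g.2, ⟨hx, hx0⟩, ?_⟩
  rintro u ⟨c, hc⟩
  have hτ : oa (NN (rho (G1 G) W hW.inv g)) hsq c ∈ (rho (G1 G) W hW.inv).range := hsF ⟨c, rfl⟩
  obtain ⟨h, hh⟩ := hτ
  have h4 : (h.1 : M →ₗ[k] M) - (u : M →ₗ[k] M) = 0 := by
    apply ext_zero hG h2 h3 hW
    · intro a ha
      rw [hc, sub_mul, mul_sub, comm_G0 hG h2 h3 h.2 ha]
      congr 1
      have e : ((g.1 : M →ₗ[k] M) - 1) = NN g.1 := rfl
      rw [e, add_mul, mul_add, one_mul, mul_one, smul_mul_assoc, mul_smul_comm, commNN_G0 hG h2 h3 g.2 ha]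
    · intro m hm
      have e := congrArg (fun F : LinearMap.GeneralLinearGroup k ↥W => (((F : ↥W →ₗ[k] ↥W) ⟨m, hm⟩ : ↥W) : M)) hh
      simp only [rho_apply, oa_val, LinearMap.add_apply, Module.End.one_apply, LinearMap.smul_apply, Submodule.coe_add,
        Submodule.coe_smul] at e
      rw [coe_NN_rho] at e
      rw [LinearMap.sub_apply, e, hc]
      simp [NN]
  have h5 : u = h.1 := Units.ext (sub_eq_zero.1 h4).symm
  rw [h5]
  exact G1_le h.2

/-- Radical elements restrict to quadratic elements. -/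
theorem rho_mem_Q {W : Submodule k M} (hW : MinInv (G1 G) W) (s : ↥(G1 G)) (hs : s.1 ∈ Q0 G)
    (hne : rho (G1 G) W hW.inv s ≠ 1) : rho (G1 G) W hW.inv s ∈ Cfsg.quadraticElements (rho (G1 G) W hW.inv).range := by
  have hl := logQ_of_mem hs.1
  refine ⟨⟨s, rfl⟩, ⟨?_, fun h0 => hne (Units.ext (sub_eq_zero.1 h0))⟩, ?_⟩
  · ext w
    rw [show ((rho (G1 G) W hW.inv s : LinearMap.GeneralLinearGroup k ↥W) : ↥W →ₗ[k] ↥W) - 1 = NN (rho (G1 G) W hW.inv s) from rfl]
    simp only [Module.End.mul_apply, LinearMap.zero_apply, ZeroMemClass.coe_zero]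
    rw [coe_NN_rho, coe_NN_rho]
    exact congrArg (fun F : M →ₗ[k] M => F w.1) hl.sq
  · rintro u ⟨c, hc⟩
    have hm := oa_mem_G1 hl hs.2 c
    refine ⟨⟨_, hm⟩, ?_⟩
    apply Units.ext
    rw [hc]
    ext w
    rw [rho_apply]
    rw [show ((rho (G1 G) W hW.inv s : LinearMap.GeneralLinearGroup k ↥W) : ↥W →ₗ[k] ↥W) - 1 = NN (rho (G1 G) W hW.inv s) from rfl]
    simp only [oa_val, LinearMap.add_apply, Module.End.one_apply, LinearMap.smul_apply, Submodule.coe_add, Submodule.coe_smul]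
    rw [coe_NN_rho]

/-- The restriction gives a quadratic pair. -/
theorem pair_rho {W : Submodule k M} (hW : MinInv (G1 G) W) :
    Cfsg.IsQuadraticPair (rho (G1 G) W hW.inv).range := by
  refine ⟨⟨?_, ?_⟩, ?_⟩
  · obtain ⟨v, hv, hv0⟩ := (Submodule.ne_bot_iff W).1 hW.ne
    exact ⟨⟨v, hv⟩, fun h0 => hv0 (congrArg Subtype.val h0)⟩
  · intro W' hinv
    have hle : W'.map W.subtype ≤ W := by
      rintro _ ⟨w, _, rfl⟩
      exact w.2
    have hi : Inv (G1 G) (W'.map W.subtype) := by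
      rintro g hg _ ⟨w, hw, rfl⟩
      exact ⟨_, hinv _ ⟨⟨g, hg⟩, rfl⟩ w hw, rfl⟩
    rcases hW.min _ hle hi with h0 | h0
    · left
      rw [eq_bot_iff]
      intro w hw
      have : (w : M) ∈ W'.map W.subtype := ⟨w, hw, rfl⟩
      rw [h0] at this
      exact (Submodule.mem_bot k).2 (Subtype.ext ((Submodule.mem_bot k).1 this))
    · right
      rw [eq_top_iff]
      intro w _
      have : (w : M) ∈ W'.map W.subtype := by rw [h0]; exact w.2
      obtain ⟨v, hv, hvw⟩ := this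
      have : v = w := Subtype.ext hvw
      rwa [← this]
  · apply le_antisymm
    · rw [Subgroup.closure_le]
      intro σ hσ
      exact hσ.1
    · rintro _ ⟨g, rfl⟩
      have hle : (⊤ : Subgroup ↥(G1 G)) ≤
          (Subgroup.closure (Cfsg.quadraticElements (rho (G1 G) W hW.inv).range)).comap (rho (G1 G) W hW.inv) := by
        rw [← Subgroup.closure_closure_coe_preimage (k := Q0 G), Subgroup.closure_le]
        intro s hs
        by_cases h1 : rho (G1 G) W hW.inv s = 1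
        · show rho (G1 G) W hW.inv s ∈ Subgroup.closure (Cfsg.quadraticElements (rho (G1 G) W hW.inv).range)
          rw [h1]
          exact Subgroup.one_mem _
        · exact Subgroup.subset_closure (rho_mem_Q hW s hs h1)
      exact hle (Subgroup.mem_top g)

/-- A minimal logarithm exists as soon as a logarithm does. -/
lemma exists_minLog {x : M →ₗ[k] M} (hx : LogQ G x) : ∃ y, MinLog G y := by
  classical
  have hex : ∃ n, ∃ w, LogQ G w ∧ rk w = n := ⟨_, x, hx, rfl⟩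
  obtain ⟨w, hw, hwn⟩ := Nat.find_spec hex
  refine ⟨w, hw, fun v hv => ?_⟩
  rw [hwn]
  exact Nat.find_min' hex ⟨v, hv, rfl⟩

end Main

/-- The radical part decomposes, by induction. -/
theorem exists_part1 {k : Type u} [Field k] {M : Type u} [AddCommGroup M] [Module k M] [FiniteDimensional k M]
    {G : Subgroup (LinearMap.GeneralLinearGroup k M)} (hG : Cfsg.IsQuadraticPair G) (h2 : (2 : k) ≠ 0) (h3 : Nat.card k ≠ 3)
    (IH : ∀ (M' : Type u) [AddCommGroup M'] [Module k M'] [FiniteDimensional k M']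
      (G' : Subgroup (LinearMap.GeneralLinearGroup k M')), Module.finrank k M' < Module.finrank k M →
      Cfsg.IsQuadraticPair G' → ∃ F, Fam G' F) : ∃ F, Part1 G F := by
  by_cases hQ : (Q0 G).Nonempty
  swap
  · refine ⟨∅, Set.finite_empty, by simp, by simp, by simp, ?_, by simp, ?_⟩
    · have : Q0 G = ∅ := Set.not_nonempty_iff_eq_empty.1 hQ
      simp only [G1, this, Subgroup.closure_empty]
      simp
    · have : Q0 G = ∅ := Set.not_nonempty_iff_eq_empty.1 hQ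
      simp [this]
  obtain ⟨σ₀, hσ₀⟩ := hQ
  obtain ⟨y, hy⟩ := exists_minLog (logQ_of_mem hσ₀.1)
  have hcy : ∀ g ∈ G1 G, (g : M →ₗ[k] M) * y = y * g := by
    intro g hg
    exact comm_of_oa hy.sq (G1_comm hG h2 h3 hg (oa_mem_root hy))
  have hkerinv : Inv (G1 G) (LinearMap.ker y) := by
    intro g hg w hw
    have h4 := congrArg (fun F : M →ₗ[k] M => F w) (hcy g hg)
    simp only [Module.End.mul_apply] at h4
    show y ((g : M →ₗ[k] M) w) = 0
    rw [← h4]
    have hw' : y w = 0 := hw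
    rw [hw', map_zero]
  have hkerne : LinearMap.ker y ≠ ⊥ := by
    obtain ⟨v, hv⟩ : ∃ v, y v ≠ 0 := by
      by_contra hcon
      push Not at hcon
      exact hy.ne (LinearMap.ext hcon)
    intro h0
    have : y v ∈ LinearMap.ker y := congrArg (fun F : M →ₗ[k] M => F v) hy.sq
    rw [h0] at this
    exact hv ((Submodule.mem_bot k).1 this)
  have hkerlt : LinearMap.ker y < ⊤ := by
    refine lt_of_le_of_ne le_top ?_
    intro h0
    apply hy.ne
    ext v
    have : v ∈ LinearMap.ker y := by rw [h0]; trivial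
    simpa using this
  obtain ⟨W, hWle, hW⟩ := exists_minInv (G1 G) _ _ rfl hkerne hkerinv
  have hdim : Module.finrank k ↥W < Module.finrank k M :=
    lt_of_le_of_lt (Submodule.finrank_mono hWle) (Submodule.finrank_lt hkerlt.ne)
  obtain ⟨F', hF'⟩ := IH ↥W (rho (G1 G) W hW.inv).range hdim (pair_rho hW)
  have hinj := rho_inj hG h2 h3 hW
  obtain ⟨r, hrd⟩ : ∃ r, r = rho (G1 G) W hW.inv := ⟨_, rfl⟩
  rw [← hrd] at hF' hinj
  refine ⟨(phi r) '' F', hF'.fin.image _, ?_, ?_, ?_, ?_, ?_, ?_⟩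
  · rintro _ ⟨X, _, rfl⟩
    exact phi_le r X
  · rintro _ ⟨X, hX, rfl⟩ g hg
    apply stable_of_conj (K := G1 G) _ hg
    intro g hg z hz
    exact phi_conj r (fun g => (hF'.norm X hX).2 _ ⟨g, rfl⟩) hg hz
  · rintro _ ⟨X, hX, rfl⟩ _ ⟨Y, hY, rfl⟩ hne
    exact phi_comm r hinj (hF'.comm X hX Y hY (fun h => hne (by rw [h])))
  · exact phi_sup r hinj hF'.sup
  · rintro _ ⟨X, hX, rfl⟩
    obtain ⟨hXle, -⟩ := hF'.norm X hX
    obtain ⟨hq, hcl⟩ := hF'.gen X hX
    obtain ⟨e⟩ := phi_equiv r hinj hXle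
    refine ⟨Cfsg.Agent.Lib.Components.Basic.isQuasisimple_of_mulEquiv e hq, le_antisymm ?_ ?_⟩
    · rw [Subgroup.closure_le]
      exact Set.inter_subset_right
    · intro z hz
      obtain ⟨hz', hm⟩ := (mem_phi r).1 hz
      obtain ⟨Z, hZd⟩ : ∃ Z, Z = Subgroup.closure (Cfsg.quadraticElements G ∩ (phi r X : Set (LinearMap.GeneralLinearGroup k M))) := ⟨_, rfl⟩
      rw [← hZd]
      have hle : X ≤ (Z.subgroupOf (G1 G)).map r := by
        conv_lhs => rw [← hcl]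
        rw [Subgroup.closure_le]
        rintro q ⟨hqQ, hqX⟩
        obtain ⟨g, rfl⟩ := hqQ.1
        refine ⟨g, ?_, rfl⟩
        rw [SetLike.mem_coe, Subgroup.mem_subgroupOf, hZd]
        apply Subgroup.subset_closure
        refine ⟨?_, (mem_phi r).2 ⟨g.2, hqX⟩⟩
        rw [hrd] at hqQ
        exact lift_Q hG h2 h3 hW g hqQ
      obtain ⟨h, hh, he⟩ := hle hm
      have := hinj he
      rw [SetLike.mem_coe, Subgroup.mem_subgroupOf, this] at hh
      exact hh
  · intro σ hσ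
    have hσG : σ ∈ G1 G := Subgroup.subset_closure hσ
    have hl := logQ_of_mem hσ.1
    have hσ1 : r ⟨σ, hσG⟩ ≠ 1 := by
      intro h0
      have h4 := (injective_iff_map_eq_one r).1 hinj _ h0
      have h5 : σ = 1 := congrArg Subtype.val h4
      apply hl.ne
      rw [h5]
      simp
    have h6 : r ⟨σ, hσG⟩ ∈ Cfsg.quadraticElements r.range := by
      rw [hrd] at hσ1 ⊢
      exact rho_mem_Q hW ⟨σ, hσG⟩ hσ hσ1
    have h7 := hF'.cover h6
    simp only [Set.mem_iUnion, SetLike.mem_coe] at h7 ⊢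
    obtain ⟨X, hX, hm⟩ := h7
    exact ⟨_, ⟨X, hX, rfl⟩, (mem_phi r).2 ⟨hσG, hm⟩⟩

/-- **The decomposition of a quadratic pair.** -/
theorem exists_fam {k : Type u} [Field k] (h2 : (2 : k) ≠ 0) (h3 : Nat.card k ≠ 3) :
    ∀ (n : ℕ) (M : Type u) [AddCommGroup M] [Module k M] [FiniteDimensional k M]
      (G : Subgroup (LinearMap.GeneralLinearGroup k M)), Module.finrank k M = n → Cfsg.IsQuadraticPair G →
      ∃ F, Fam G F := by
  intro n
  induction n using Nat.strong_induction_on with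
  | _ n ih =>
    intro M _ _ _ G hn hG
    obtain ⟨F, hF⟩ := exists_part1 hG h2 h3 (fun M' _ _ _ G' hlt hG' => ih _ (by omega) M' G' rfl hG')
    exact ⟨_, glue hG h2 h3 hF⟩

/-- **`G` is a central product of quasisimple normal subgroups.** -/
theorem main_5063 {k : Type u} [Field k] (h2 : (2 : k) ≠ 0) (h3 : Nat.card k ≠ 3) {M : Type u} [AddCommGroup M] [Module k M]
    [FiniteDimensional k M] {G : Subgroup (LinearMap.GeneralLinearGroup k M)} (hG : Cfsg.IsQuadraticPair G) :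
    ∃ (s : ℕ) (Gi : Fin s → Subgroup (LinearMap.GeneralLinearGroup k M)),
      (∀ i, Gi i ≤ G ∧ ∀ g ∈ G, Cfsg.conjBy (Gi i) g = Gi i) ∧ (∀ i j, i ≠ j → ⁅Gi i, Gi j⁆ = ⊥) ∧ (⨆ i, Gi i) = G ∧
      (∀ i, Cfsg.IsQuasisimple ↥(Gi i) ∧ Subgroup.closure (Cfsg.quadraticElements G ∩ (Gi i : Set (LinearMap.GeneralLinearGroup k M))) = Gi i) ∧
      Cfsg.quadraticElements G ⊆ ⋃ i, (Gi i : Set (LinearMap.GeneralLinearGroup k M)) := by
  obtain ⟨F, hF⟩ := exists_fam h2 h3 _ M G rfl hG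
  exact conclusion_of_fam hF

end Cfsg.Agent.Lib.QuadMain.Descent
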