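import Cfsg.Agent.Lib.Linalg.Quad.RootSet
import Mathlib

/-!
# Logarithms and the radical of a quadratic pair

`LogZ G z`: `z² = 0` and all `1 + c z` lie in `G` (`z = 0` allowed).
`Rad G l`: `y l y = 0` for all minimal logarithms `y`.
**Main**: a logarithm in the radical commutes with all minimal logarithms.
-/

set_option autoImplicit false
set_option linter.unusedSectionVars false
set_option linter.unusedVariables false

namespace Cfsg.Agent.Lib.QuadMain.Log

open Polynomial
open Cfsg.Agent.Lib.Linalg.Quad.Dich Cfsg.Agent.Lib.Linalg.Quad.Psi Cfsg.Agent.Lib.Linalg.Quad.Root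
  Cfsg.Agent.Lib.Linalg.Quad.Pair Cfsg.Agent.Lib.Linalg.Quad.NType Cfsg.Agent.Lib.Linalg.Quad.UType
  Cfsg.Agent.Lib.Linalg.Quad.Surj

variable {k : Type*} [Field k] {M : Type*} [AddCommGroup M] [Module k M]
  {G : Subgroup (LinearMap.GeneralLinearGroup k M)}

/-- Logarithms, zero allowed. -/
structure LogZ (G : Subgroup (LinearMap.GeneralLinearGroup k M)) (z : M →ₗ[k] M) : Prop where
  sq : z * z = 0
  mem : ∀ (c : k) (u : LinearMap.GeneralLinearGroup k M), (u : M →ₗ[k] M) = 1 + c • z → u ∈ G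

lemma LogQ.toLogZ {z : M →ₗ[k] M} (h : LogQ G z) : LogZ G z := ⟨h.sq, h.mem⟩

lemma LogZ.toLogQ {z : M →ₗ[k] M} (h : LogZ G z) (h0 : z ≠ 0) : LogQ G z := ⟨h.sq, h0, h.mem⟩

lemma LogZ.oa_mem {z : M →ₗ[k] M} (h : LogZ G z) (c : k) : oa z h.sq c ∈ G := h.mem c _ rfl

lemma logZ_zero : LogZ G (0 : M →ₗ[k] M) := by
  refine ⟨by simp, fun c u hu => ?_⟩
  have : u = 1 := by
    apply Units.ext
    rw [hu]
    simp
  rw [this]
  exact G.one_mem

lemma LogZ.smul {z : M →ₗ[k] M} (h : LogZ G z) (a : k) : LogZ G (a • z) := by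
  refine ⟨?_, fun c u hu => ?_⟩
  · simp [smul_mul_assoc, mul_smul_comm, h.sq]
  · apply h.mem (c * a) u
    rw [hu, smul_smul]

lemma LogZ.add {a b : M →ₗ[k] M} (ha : LogZ G a) (hb : LogZ G b) (hab : a * b = 0) (hba : b * a = 0) :
    LogZ G (a + b) := by
  refine ⟨?_, fun c u hu => ?_⟩
  · rw [add_mul, mul_add, mul_add, ha.sq, hb.sq, hab, hba]
    simp
  · have : u = oa a ha.sq c * oa b hb.sq c := by
      apply Units.ext
      rw [hu, Units.val_mul, oa_val, oa_val]
      have e : ∀ p q : M →ₗ[k] M, (1 + p) * (1 + q) = 1 + p + q + p * q := by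
        intro p q; noncomm_ring
      rw [e, smul_mul_assoc, mul_smul_comm, hab]
      simp only [smul_zero, add_zero, smul_add]
      abel
    rw [this]
    exact G.mul_mem (ha.oa_mem c) (hb.oa_mem c)

lemma LogZ.sub {a b : M →ₗ[k] M} (ha : LogZ G a) (hb : LogZ G b) (hab : a * b = 0) (hba : b * a = 0) :
    LogZ G (a - b) := by
  have h := ha.add (hb.smul (-1)) (by simp [hab]) (by simp [hba])
  convert h using 1
  simp [sub_eq_add_neg]

lemma LogZ.cj {z : M →ₗ[k] M} (h : LogZ G z) {g : LinearMap.GeneralLinearGroup k M} (hg : g ∈ G) :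
    LogZ G (cj g z) := by
  refine ⟨by rw [cj_mul, h.sq]; simp [Cfsg.Agent.Lib.Linalg.Quad.Root.cj], fun c u hu => ?_⟩
  have : u = g * oa z h.sq c * g⁻¹ := by
    apply Units.ext
    rw [hu]
    simp only [Units.val_mul, oa_val]
    rw [mul_add, add_mul, mul_one, ← Units.val_mul, mul_inv_cancel, Units.val_one, mul_smul_comm, smul_mul_assoc]
  rw [this]
  exact G.mul_mem (G.mul_mem hg (h.oa_mem c)) (G.inv_mem hg)

lemma minLog_of_logZ [FiniteDimensional k M] {z y : M →ₗ[k] M} (hz : LogZ G z) (h0 : z ≠ 0) (hy : MinLog G y)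
    (hr : rk z ≤ rk y) : MinLog G z :=
  ⟨hz.toLogQ h0, fun w hw => hr.trans (hy.min w hw)⟩

/-- The expansion of the conjugate of `y` by `1 + x`. -/
lemma cj_p (x y : M →ₗ[k] M) (hx : x * x = 0) :
    Cfsg.Agent.Lib.Linalg.Quad.Root.cj (oa x hx 1) y = y + (x * y - y * x) - x * y * x := by
  unfold Cfsg.Agent.Lib.Linalg.Quad.Root.cj
  rw [oa_inv]
  simp only [oa_val, one_smul, neg_smul]
  noncomm_ring

/-- The expansion of the conjugate of `y` by `1 - x`. -/
lemma cj_m (x y : M →ₗ[k] M) (hx : x * x = 0) :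
    Cfsg.Agent.Lib.Linalg.Quad.Root.cj (oa x hx (-1)) y = y - (x * y - y * x) - x * y * x := by
  unfold Cfsg.Agent.Lib.Linalg.Quad.Root.cj
  rw [oa_inv]
  simp only [oa_val, one_smul, neg_smul, neg_neg]
  noncomm_ring

/-- The radical. -/
def Rad (G : Subgroup (LinearMap.GeneralLinearGroup k M)) (l : M →ₗ[k] M) : Prop :=
  ∀ y, MinLog G y → y * l * y = 0

lemma Rad.add {a b : M →ₗ[k] M} (ha : Rad G a) (hb : Rad G b) : Rad G (a + b) := by
  intro y hy
  rw [mul_add, add_mul, ha y hy, hb y hy, add_zero]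

lemma Rad.smul {a : M →ₗ[k] M} (ha : Rad G a) (c : k) : Rad G (c • a) := by
  intro y hy
  rw [mul_smul_comm, smul_mul_assoc, ha y hy, smul_zero]

lemma Rad.sub {a b : M →ₗ[k] M} (ha : Rad G a) (hb : Rad G b) : Rad G (a - b) := by
  intro y hy
  rw [mul_sub, sub_mul, ha y hy, hb y hy, sub_zero]

variable [FiniteDimensional k M]

lemma Rad.cj {l : M →ₗ[k] M} (h : Rad G l) {g : LinearMap.GeneralLinearGroup k M} (hg : g ∈ G) :
    Rad G (cj g l) := by
  intro y hy
  have h1 := h (Cfsg.Agent.Lib.Linalg.Quad.Root.cj g⁻¹ y) (minLog_cj hy (G.inv_mem hg))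
  have e : Cfsg.Agent.Lib.Linalg.Quad.Root.cj g⁻¹ y * l * Cfsg.Agent.Lib.Linalg.Quad.Root.cj g⁻¹ y =
      Cfsg.Agent.Lib.Linalg.Quad.Root.cj g⁻¹ (y * Cfsg.Agent.Lib.Linalg.Quad.Root.cj g l * y) := by
    rw [← cj_mul, ← cj_mul, cj_inv_cj]
  rw [e] at h1
  have h2 := cj_cj_inv g (y * Cfsg.Agent.Lib.Linalg.Quad.Root.cj g l * y)
  rw [h1] at h2
  rw [← h2]
  simp [Cfsg.Agent.Lib.Linalg.Quad.Root.cj]

/-- `[u, l]` and `u l u` stay in the radical. -/
lemma Rad.comm (h2 : (2 : k) ≠ 0) {u l : M →ₗ[k] M} (hu : LogZ G u) (hl : Rad G l) :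
    Rad G (u * l - l * u) := by
  have hp := hl.cj (hu.oa_mem 1)
  have hm := hl.cj (hu.oa_mem (-1))
  rw [cj_p] at hp
  rw [cj_m] at hm
  have h := (hp.sub hm).smul (2 : k)⁻¹
  convert h using 1
  have : l + (u * l - l * u) - (u * l * u) - (l - (u * l - l * u) - (u * l * u)) = (2 : k) • (u * l - l * u) := by
    rw [two_smul]; abel
  rw [this, smul_smul, inv_mul_cancel₀ h2, one_smul]

lemma Rad.sand (h2 : (2 : k) ≠ 0) {u l : M →ₗ[k] M} (hu : LogZ G u) (hl : Rad G l) :
    Rad G (u * l * u) := by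
  have hp := hl.cj (hu.oa_mem 1)
  have hm := hl.cj (hu.oa_mem (-1))
  rw [cj_p] at hp
  rw [cj_m] at hm
  have h := ((hp.add hm).sub (hl.smul 2)).smul (-(2 : k)⁻¹)
  convert h using 1
  have : l + (u * l - l * u) - (u * l * u) + (l - (u * l - l * u) - (u * l * u)) - (2 : k) • l =
      (-2 : k) • (u * l * u) := by
    rw [two_smul, neg_smul, two_smul]; abel
  rw [this, smul_smul]
  have h5 : -(2 : k)⁻¹ * (-2) = 1 := by field_simp
  rw [h5, one_smul]

/-- No minimal logarithm lies in the radical. -/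
lemma not_rad_min (hG : Cfsg.IsQuadraticPair G) (h2 : (2 : k) ≠ 0) (h3 : Nat.card k ≠ 3) {y : M →ₗ[k] M}
    (hy : MinLog G y) : ¬ Rad G y := by
  intro hr
  obtain ⟨g, hg, hN⟩ := exists_conj_NTy hG h2 h3 (mem_of_minLog hy)
  have e : NN (oa y hy.sq 1) = y := NN_oa _
  rw [e] at hN
  have hy' : MinLog G (Cfsg.Agent.Lib.Linalg.Quad.Root.cj g y) := minLog_cj hy hg
  have h1 := hr _ hy'
  exact hN.symm.not_zero hy'.ne h1

section Ring

variable {A : Type*} [Ring A]

omit [FiniteDimensional k M] in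
lemma ring_aux {x y : A} (hxx : x * x = 0) (hyy : y * y = 0) (hyxy : y * x * y = 0) :
    let P := y + (x * y - y * x) - x * y * x
    let Q := y - (x * y - y * x) - x * y * x
    y * P = 0 ∧ P * y = 0 ∧ y * Q = 0 ∧ Q * y = 0 ∧ P * Q = 0 ∧ Q * P = 0 := by
  intro P Q
  have eP : P = (1 + x) * y * (1 - x) := by simp only [P]; noncomm_ring
  have eQ : Q = (1 - x) * y * (1 + x) := by simp only [Q]; noncomm_ring
  have hsq : ∀ u : A, u * u = 0 → (1 + u) * (1 + u) = 1 + u + u := by
    intro u hu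
    calc (1 + u) * (1 + u) = 1 + u + u + u * u := by noncomm_ring
      _ = _ := by rw [hu, add_zero]
  have h1 : y * (1 + x) * y = 0 := by
    calc y * (1 + x) * y = y * y + y * x * y := by noncomm_ring
      _ = 0 := by rw [hyy, hyxy, add_zero]
  have h2 : y * (1 - x) * y = 0 := by
    calc y * (1 - x) * y = y * y - y * x * y := by noncomm_ring
      _ = 0 := by rw [hyy, hyxy, sub_zero]
  have h3 : y * ((1 - x) * (1 - x)) * y = 0 := by
    have e : (1 - x) * (1 - x) = 1 - x - x + x * x := by noncomm_ring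
    rw [e, hxx, add_zero]
    calc y * (1 - x - x) * y = y * y - y * x * y - y * x * y := by noncomm_ring
      _ = 0 := by rw [hyy, hyxy]; simp
  have h4 : y * ((1 + x) * (1 + x)) * y = 0 := by
    have e : (1 + x) * (1 + x) = 1 + x + x + x * x := by noncomm_ring
    rw [e, hxx, add_zero]
    calc y * (1 + x + x) * y = y * y + y * x * y + y * x * y := by noncomm_ring
      _ = 0 := by rw [hyy, hyxy]; simp
  refine ⟨?_, ?_, ?_, ?_, ?_, ?_⟩
  · calc y * P = (y * (1 + x) * y) * (1 - x) := by rw [eP]; noncomm_ring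
      _ = 0 := by rw [h1, zero_mul]
  · calc P * y = (1 + x) * (y * (1 - x) * y) := by rw [eP]; noncomm_ring
      _ = 0 := by rw [h2, mul_zero]
  · calc y * Q = (y * (1 - x) * y) * (1 + x) := by rw [eQ]; noncomm_ring
      _ = 0 := by rw [h2, zero_mul]
  · calc Q * y = (1 - x) * (y * (1 + x) * y) := by rw [eQ]; noncomm_ring
      _ = 0 := by rw [h1, mul_zero]
  · calc P * Q = (1 + x) * (y * ((1 - x) * (1 - x)) * y) * (1 + x) := by rw [eP, eQ]; noncomm_ring
      _ = 0 := by rw [h3]; simp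
  · calc Q * P = (1 - x) * (y * ((1 + x) * (1 + x)) * y) * (1 - x) := by rw [eP, eQ]; noncomm_ring
      _ = 0 := by rw [h4]; simp

end Ring

/-- **All-unipotent logarithms commute with the minimal ones.** -/
theorem comm_of_rad (hG : Cfsg.IsQuadraticPair G) (h2 : (2 : k) ≠ 0) (h3 : Nat.card k ≠ 3) {x y : M →ₗ[k] M}
    (hx : LogZ G x) (hr : Rad G x) (hy : MinLog G y) : x * y = y * x ∧ x * y * x = 0 := by
  have hxx := hx.sq
  have hyy := hy.sq
  have hyxy := hr y hy
  have hyL : LogZ G y := LogQ.toLogZ hy.toLogQ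
  obtain ⟨a1, a2, a3, a4, a5, a6⟩ := ring_aux hxx hyy hyxy
  have hP : LogZ G (y + (x * y - y * x) - x * y * x) := by
    rw [← cj_p x y hxx]
    exact hyL.cj (hx.oa_mem 1)
  have hQ : LogZ G (y - (x * y - y * x) - x * y * x) := by
    rw [← cj_m x y hxx]
    exact hyL.cj (hx.oa_mem (-1))
  -- `[x, y]`
  have hz : LogZ G (x * y - y * x) := by
    have h := (hP.sub hQ a5 a6).smul (2 : k)⁻¹
    convert h using 1
    have : y + (x * y - y * x) - x * y * x - (y - (x * y - y * x) - x * y * x) = (2 : k) • (x * y - y * x) := by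
      rw [two_smul]; abel
    rw [this, smul_smul, inv_mul_cancel₀ h2, one_smul]
  -- `x y x`
  have hw : LogZ G (x * y * x) := by
    have h5 : (y + (x * y - y * x) - x * y * x + (y - (x * y - y * x) - x * y * x)) * y = 0 := by
      rw [add_mul, a2, a4, add_zero]
    have h6 : y * (y + (x * y - y * x) - x * y * x + (y - (x * y - y * x) - x * y * x)) = 0 := by
      rw [mul_add, a1, a3, add_zero]
    have h := (((hP.add hQ a5 a6).sub (hyL.smul 1) (by simpa using h5) (by simpa using h6)).sub (hyL.smul 1)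
      (by simp only [smul_mul_assoc, mul_smul_comm, one_smul, sub_mul, hyy, h5, sub_zero])
      (by simp only [smul_mul_assoc, mul_smul_comm, one_smul, mul_sub, hyy, h6, sub_zero])).smul (-(2 : k)⁻¹)
    convert h using 1
    have : y + (x * y - y * x) - x * y * x + (y - (x * y - y * x) - x * y * x) - (1 : k) • y - (1 : k) • y =
        (-2 : k) • (x * y * x) := by
      rw [neg_smul, two_smul, one_smul]; abel
    rw [this, smul_smul]
    have h5 : -(2 : k)⁻¹ * (-2) = 1 := by field_simp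
    rw [h5, one_smul]
  -- radical
  have hrz : Rad G (y * x - x * y) := Rad.comm h2 hyL hr
  have hrz' : Rad G (x * y - y * x) := by
    have := hrz.smul (-1)
    convert this using 1
    simp
  have hrw : Rad G (x * y * x) := by
    have h4 := (Rad.comm h2 hx hrz').smul (-(2 : k)⁻¹)
    convert h4 using 1
    have e : x * (x * y - y * x) - (x * y - y * x) * x = (-2 : k) • (x * y * x) + (x * x * y + y * (x * x)) := by
      rw [neg_smul, two_smul]; noncomm_ring
    rw [e, hxx]
    simp only [mul_zero, zero_mul, add_zero, smul_smul]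
    have h5 : -(2 : k)⁻¹ * (-2) = 1 := by field_simp
    rw [h5, one_smul]
  -- ranks
  have hw0 : x * y * x = 0 := by
    by_contra hne
    have hrk : rk (x * y * x) ≤ rk y := by
      unfold rk
      rw [mul_assoc, range_mul]
      exact (Submodule.finrank_map_le _ _).trans (Submodule.finrank_mono (LinearMap.range_comp_le_range _ _))
    exact not_rad_min hG h2 h3 (minLog_of_logZ hw hne hy hrk) hrw
  refine ⟨?_, hw0⟩
  by_contra hne
  have hne' : x * y - y * x ≠ 0 := sub_ne_zero.2 hne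
  exact not_rad_min hG h2 h3 (minLog_of_logZ hz hne' hy (rk_comm_le hw0)) hrz'

end Cfsg.Agent.Lib.QuadMain.Log
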