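import Cfsg.Agent.Lib.QuadMain.Quasi
import Mathlib

/-!
# The splitting of the root subgroups into classes
-/

set_option autoImplicit false
set_option linter.unusedSectionVars false
set_option linter.unusedVariables false

namespace Cfsg.Agent.Lib.QuadMain.Parts

open Cfsg.Agent.Lib.Linalg.Quad.Dich Cfsg.Agent.Lib.Linalg.Quad.Root
  Cfsg.Agent.Lib.Linalg.Quad.Pair Cfsg.Agent.Lib.Linalg.Quad.NType Cfsg.Agent.Lib.Linalg.Quad.UType
  Cfsg.Agent.Lib.Linalg.Quad.Surj Cfsg.Agent.Lib.Linalg.Quad.RootSet Cfsg.Agent.Lib.Linalg.Quad.SL2Rep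
  Cfsg.Agent.Lib.Linalg.Quad.Class2
open Cfsg.Agent.Lib.QuadMain.Log Cfsg.Agent.Lib.QuadMain.Decomp Cfsg.Agent.Lib.QuadMain.Cocentral
  Cfsg.Agent.Lib.QuadMain.Conn Cfsg.Agent.Lib.QuadMain.Cliff Cfsg.Agent.Lib.QuadMain.Quasi

universe u

section Main

variable {k : Type u} [Field k] {M : Type*} [AddCommGroup M] [Module k M] [FiniteDimensional k M]
  {G : Subgroup (LinearMap.GeneralLinearGroup k M)}

/-- Each component is a class of abstract root subgroups of its group. -/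
theorem class_main (hG : Cfsg.IsQuadraticPair G) (h2 : (2 : k) ≠ 0) (h3 : Nat.card k ≠ 3)
    {A₀ : Subgroup (LinearMap.GeneralLinearGroup k M)} (hA₀ : A₀ ∈ Cfsg.quadraticRootSubgroups G) :
    Cfsg.IsRootSubgroupClass ((fun A : Subgroup (LinearMap.GeneralLinearGroup k M) => A.subgroupOf (HH (cmp G A₀))) ''
      cmp G A₀) := by
  refine ⟨⟨?_, ?_, ?_, ?_, ?_⟩, ?_, ?_⟩
  · rintro _ ⟨_, hB, rfl⟩
    obtain ⟨σ, hσ, rfl⟩ := hB.1
    refine IsMulCommutative.of_comm ?_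
    rintro ⟨a, ha⟩ ⟨b, hb⟩
    apply Subtype.ext
    apply Subtype.ext
    exact E_comm hσ ha hb
  · rintro _ ⟨B, hB, rfl⟩ h0
    obtain ⟨σ, hσ, rfl⟩ := id hB.1
    have hσE := E_self hσ
    have h5 : (⟨σ, le_HH hB hσE⟩ : HH (cmp G A₀)) ∈ (Cfsg.sameActionSubgroup G σ).subgroupOf (HH (cmp G A₀)) := hσE
    have h0' : (Cfsg.sameActionSubgroup G σ).subgroupOf (HH (cmp G A₀)) = ⊥ := h0
    rw [h0', Subgroup.mem_bot] at h5
    have h6 : σ = 1 := congrArg Subtype.val h5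
    apply (minLog_of_mem hσ).ne
    rw [h6]
    simp
  · apply Subgroup.map_injective (HH (cmp G A₀)).subtype_injective
    rw [iSup_image]
    have e : (⊤ : Subgroup (HH (cmp G A₀))).map (HH (cmp G A₀)).subtype = HH (cmp G A₀) := by
      rw [← MonoidHom.range_eq_map, Subgroup.range_subtype]
    rw [e]
    simp only [Subgroup.map_iSup]
    exact iSup_congr fun A => iSup_congr fun hA => Subgroup.map_subgroupOf_eq_of_le (le_HH hA)
  · rintro _ ⟨A, hA, rfl⟩ g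
    refine ⟨Cfsg.conjBy A g, ?_, (conjBy_subgroupOf (le_HH hA) g).symm⟩
    have := conj_mem_cmp hG h2 h3 (HH_le_G cmp_sub g.2) A hA.1
    rwa [cmp_eq_of_mem hA] at this
  · rintro _ ⟨A, hA, rfl⟩ _ ⟨B, hB, rfl⟩
    obtain ⟨σ, hσ, rfl⟩ := id hA.1
    obtain ⟨τ, hτ, rfl⟩ := id hB.1
    by_cases hN : NTy (NN σ) (NN τ)
    · right; left
      exact rankOne_subgroupOf (le_HH hA) (le_HH hB) (isSpecialRankOne h2 h3 hσ hτ hN).1
    rcases pair_tri hG h2 h3 hσ hτ with h0 | h0 | h0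
    · left
      rw [comm_subgroupOf (le_HH hA) (le_HH hB), h0]
      exact Subgroup.bot_subgroupOf _
    · right; left
      exact rankOne_subgroupOf (le_HH hA) (le_HH hB) h0
    · right; right
      obtain ⟨h1, h4, h5, h6⟩ := h0
      have h7 := comm_mem_cmp hG h2 h3 hσ hτ hN h1
      rw [cmp_eq_of_mem hA] at h7
      exact rcc_subgroupOf (S := cmp G A₀) (le_HH hA) (le_HH hB) ⟨h7, h4, h5, h6⟩
  · exact ⟨_, A₀, mem_cmp_self hA₀, rfl⟩
  · rintro _ ⟨A, hA, rfl⟩ _ ⟨B, hB, rfl⟩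
    have hB' : B ∈ cmp G A := by rwa [cmp_eq_of_mem hA]
    obtain ⟨g, hg, hgB⟩ := exists_conj_in_HH hB'
    rw [cmp_eq_of_mem hA] at hg
    refine ⟨⟨g, hg⟩, ?_⟩
    rw [conjBy_subgroupOf (le_HH hA), ← hgB]

/-- The rank one pairs in a component contain `SL₂`-subpairs. -/
theorem partners_main (h2 : (2 : k) ≠ 0) (h3 : Nat.card k ≠ 3)
    {L : Set (Subgroup (LinearMap.GeneralLinearGroup k M))} (hL : L ⊆ Cfsg.quadraticRootSubgroups G) :
    ∀ A ∈ L, ∀ B ∈ Cfsg.rankOnePartners L A, ∃ A₀ B₀ : Subgroup (LinearMap.GeneralLinearGroup k M), A₀ ≤ A ∧ B₀ ≤ B ∧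
      ∃ (k₁ : Type u) (_ : Field k₁), 3 < ENat.card k₁ ∧ Cfsg.IsPSL2PairOver k₁ A₀ B₀ := by
  intro A hA B hB
  obtain ⟨σ, hσ, rfl⟩ := hL hA
  obtain ⟨τ, hτ, rfl⟩ := hL hB.1
  exact psl2_pair h2 h3 hσ hτ (NTy_of_rankOne h2 h3 hσ hτ hB.2)

/-- An enumeration of the components. -/
theorem exists_enum (hG : Cfsg.IsQuadraticPair G) (h2 : (2 : k) ≠ 0) (h3 : Nat.card k ≠ 3) :
    ∃ (r : ℕ) (part : Fin r → Set (Subgroup (LinearMap.GeneralLinearGroup k M))),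
      (∀ i, ∃ A ∈ Cfsg.quadraticRootSubgroups G, part i = Cfsg.Agent.Lib.QuadMain.Conn.cmp G A) ∧
      (∀ A ∈ Cfsg.quadraticRootSubgroups G, ∃ i, part i = Cfsg.Agent.Lib.QuadMain.Conn.cmp G A) ∧
      Function.Injective part := by
  classical
  have hfin := comps_finite hG h2 h3
  haveI := hfin.fintype
  let e := (Fintype.equivFin {L | ∃ A ∈ Cfsg.quadraticRootSubgroups G, L = Cfsg.Agent.Lib.QuadMain.Conn.cmp G A}).symm
  refine ⟨_, fun i => (e i).1, fun i => (e i).2, fun A hA => ⟨e.symm ⟨Cfsg.Agent.Lib.QuadMain.Conn.cmp G A, A, hA, rfl⟩, ?_⟩, ?_⟩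
  · simp only [Equiv.apply_symm_apply]
  · intro i j hij
    exact e.injective (Subtype.ext hij)

/-- **The root subgroups split into classes.** -/
theorem main_5069 (hG : Cfsg.IsQuadraticPair G) (h2 : (2 : k) ≠ 0) (h3 : Nat.card k ≠ 3) :
    ∃ (r : ℕ) (part : Fin r → Set (Subgroup (LinearMap.GeneralLinearGroup k M))),
      (⋃ i, part i) = Cfsg.quadraticRootSubgroups G ∧ (∀ i j, i ≠ j → Disjoint (part i) (part j)) ∧ (∀ i, (part i).Nonempty) ∧
      (∀ i j, i ≠ j → ⁅(⨆ A ∈ part i, A), (⨆ A ∈ part j, A)⁆ = ⊥) ∧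
      (∀ i, Cfsg.IsQuasisimple ↥(⨆ A ∈ part i, A) ∧
        Cfsg.IsRootSubgroupClass ((fun A : Subgroup (LinearMap.GeneralLinearGroup k M) => A.subgroupOf (⨆ B ∈ part i, B)) '' (part i)) ∧
        ∀ A ∈ part i, ∀ B ∈ Cfsg.rankOnePartners (part i) A, ∃ A₀ B₀ : Subgroup (LinearMap.GeneralLinearGroup k M), A₀ ≤ A ∧ B₀ ≤ B ∧
          ∃ (k₁ : Type u) (_ : Field k₁), 3 < ENat.card k₁ ∧ Cfsg.IsPSL2PairOver k₁ A₀ B₀) := by
  obtain ⟨r, part, hmem, hsurj, hinj⟩ := exists_enum hG h2 h3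
  refine ⟨r, part, ?_, ?_, ?_, ?_, ?_⟩
  · ext B
    simp only [Set.mem_iUnion]
    constructor
    · rintro ⟨i, hi⟩
      obtain ⟨A, hA, hAe⟩ := hmem i
      rw [hAe] at hi
      exact hi.1
    · intro hB
      obtain ⟨i, hi⟩ := hsurj B hB
      refine ⟨i, ?_⟩
      rw [hi]
      exact mem_cmp_self hB
  · intro i j hij
    rw [Set.disjoint_left]
    intro B hi hj
    apply hij
    apply hinj
    obtain ⟨A, _, hAe⟩ := hmem i
    obtain ⟨A', _, hA'e⟩ := hmem j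
    rw [hAe] at hi
    rw [hA'e] at hj
    rw [hAe, hA'e, ← cmp_eq_of_mem hi, cmp_eq_of_mem hj]
  · intro i
    obtain ⟨A, hA, hAe⟩ := hmem i
    rw [hAe]
    exact ⟨A, mem_cmp_self hA⟩
  · intro i j hij
    obtain ⟨A, hA, hAe⟩ := hmem i
    obtain ⟨A', hA', hA'e⟩ := hmem j
    rw [hAe, hA'e]
    apply commutator_bot_of_comm
    apply comm_HH hG h2 h3
    intro he
    apply hij
    apply hinj
    rw [hAe, hA'e, he]
  · intro i
    obtain ⟨A, hA, hAe⟩ := hmem i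
    rw [hAe]
    exact ⟨quasi_main hG h2 h3 hA, class_main hG h2 h3 hA, partners_main h2 h3 cmp_sub⟩

end Main

end Cfsg.Agent.Lib.QuadMain.Parts
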