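import Cfsg.Agent.Lib.QuadMain.Cliff
import Cfsg.Agent.Lib.Components.Basic
import Mathlib

/-!
# The component groups are quasisimple
-/

set_option autoImplicit false
set_option linter.unusedSectionVars false
set_option linter.unusedVariables false

namespace Cfsg.Agent.Lib.QuadMain.Quasi

open Polynomial Matrix Matrix.SpecialLinearGroup
open scoped MatrixGroups
open Cfsg.Agent.Lib.Linalg.Quad.Dich Cfsg.Agent.Lib.Linalg.Quad.Psi Cfsg.Agent.Lib.Linalg.Quad.Root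
  Cfsg.Agent.Lib.Linalg.Quad.Pair Cfsg.Agent.Lib.Linalg.Quad.NType Cfsg.Agent.Lib.Linalg.Quad.UType
  Cfsg.Agent.Lib.Linalg.Quad.Surj Cfsg.Agent.Lib.Linalg.Quad.RootSet Cfsg.Agent.Lib.Linalg.Quad.SL2Rep
  Cfsg.Agent.Lib.Linalg.Quad.Class2
open Cfsg.Agent.Lib.QuadMain.Log Cfsg.Agent.Lib.QuadMain.Decomp Cfsg.Agent.Lib.QuadMain.Cocentral
  Cfsg.Agent.Lib.QuadMain.Conn Cfsg.Agent.Lib.QuadMain.Cliff

universe u

/-- The field condition. -/
lemma exists_field_elem {K : Type*} [Field K] (h : 3 < ENat.card K) : ∃ a : K, a ≠ 0 ∧ a ^ 2 ≠ 1 := by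
  by_contra hcon
  push Not at hcon
  have hall : ∀ a : K, a = 0 ∨ a = 1 ∨ a = -1 := by
    intro a
    by_cases h0 : a = 0
    · exact Or.inl h0
    · have := hcon a h0
      have h1 : (a - 1) * (a + 1) = 0 := by linear_combination this
      rcases mul_eq_zero.1 h1 with h2 | h2
      · exact Or.inr (Or.inl (sub_eq_zero.1 h2))
      · exact Or.inr (Or.inr (eq_neg_of_add_eq_zero_left h2))
  let f : Fin 3 → K := ![0, 1, -1]
  have hf : Function.Surjective f := by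
    intro a
    rcases hall a with rfl | rfl | rfl
    · exact ⟨0, rfl⟩
    · exact ⟨1, rfl⟩
    · exact ⟨2, rfl⟩
  haveI : Finite K := Finite.of_surjective f hf
  have h4 : Nat.card K ≤ 3 := by
    have := Nat.card_le_card_of_surjective f hf
    simpa using this
  rw [ENat.card_eq_coe_natCard] at h
  have h5 : 3 < Nat.card K := by exact_mod_cast h
  omega

/-- `SL₂` is quasisimple. -/
lemma sl2_quasi {K : Type*} [Field K] (h : 3 < ENat.card K) : Cfsg.IsQuasisimple SL(2, K) := by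
  obtain ⟨a, ha, hasq⟩ := exists_field_elem h
  exact ⟨⟨SL2.commutator_eq_top ha hasq⟩, Matrix.ProjectiveSpecialLinearGroup.rank_two_simple' ⟨a, ha, hasq⟩⟩

/-- The simplicity criterion. -/
lemma simple_quot {X : Type*} [Group X] (hne : Subgroup.center X ≠ ⊤)
    (h : ∀ N : Subgroup X, N.Normal → N ≤ Subgroup.center X ∨ N = ⊤) : IsSimpleGroup (X ⧸ Subgroup.center X) := by
  haveI : Nontrivial (X ⧸ Subgroup.center X) := by
    obtain ⟨x, hx⟩ : ∃ x, x ∉ Subgroup.center X := by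
      by_contra hcon
      push Not at hcon
      exact hne (eq_top_iff.2 (fun x _ => hcon x))
    refine ⟨⟨(x : X ⧸ Subgroup.center X), 1, ?_⟩⟩
    rwa [Ne, QuotientGroup.eq_one_iff]
  refine ⟨fun N hN => ?_⟩
  have hN' : (N.comap (QuotientGroup.mk' (Subgroup.center X))).Normal := hN.comap _
  rcases h _ hN' with h1 | h1
  · left
    rw [eq_bot_iff]
    intro q hq
    obtain ⟨x, rfl⟩ := QuotientGroup.mk_surjective q
    have : x ∈ N.comap (QuotientGroup.mk' (Subgroup.center X)) := hq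
    rw [Subgroup.mem_bot, QuotientGroup.eq_one_iff]
    exact h1 this
  · right
    rw [eq_top_iff]
    intro q _
    obtain ⟨x, rfl⟩ := QuotientGroup.mk_surjective q
    have : x ∈ N.comap (QuotientGroup.mk' (Subgroup.center X)) := by rw [h1]; trivial
    exact this

section Main

variable {k : Type u} [Field k] {M : Type*} [AddCommGroup M] [Module k M] [FiniteDimensional k M]
  {G : Subgroup (LinearMap.GeneralLinearGroup k M)}

/-- The `SL₂` generated by a non-unipotent pair. -/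
abbrev CC (σ τ : LinearMap.GeneralLinearGroup k M) : Subgroup (LinearMap.GeneralLinearGroup k M) :=
  Subgroup.closure (Cfsg.scalarFamily σ ∪ Cfsg.scalarFamily τ)

/-- `⟨σ, τ⟩` is quasisimple. -/
theorem quasi_CC (h2 : (2 : k) ≠ 0) (h3 : Nat.card k ≠ 3) {σ τ : LinearMap.GeneralLinearGroup k M}
    (hσ : σ ∈ Cfsg.minimalQuadraticElements G) (hτ : τ ∈ Cfsg.minimalQuadraticElements G)
    (hN : NTy (NN σ) (NN τ)) : Cfsg.IsQuasisimple ↥(CC σ τ) := by
  obtain ⟨K, _, _, lam, _, _, ⟨e⟩⟩ := exists_SL2 h2 h3 hσ hτ hN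
  obtain ⟨hc1, hc2⟩ := card_aux (k := k) (K := K) h2 h3
  exact Cfsg.Agent.Lib.Components.Basic.isQuasisimple_of_mulEquiv e.symm (sl2_quasi hc1)

/-- Normal subgroups of the quasisimple `⟨σ, τ⟩`. -/
theorem lemT (h2 : (2 : k) ≠ 0) (h3 : Nat.card k ≠ 3) {σ τ : LinearMap.GeneralLinearGroup k M}
    (hσ : σ ∈ Cfsg.minimalQuadraticElements G) (hτ : τ ∈ Cfsg.minimalQuadraticElements G)
    (hN : NTy (NN σ) (NN τ)) {N Y : Subgroup (LinearMap.GeneralLinearGroup k M)} (hC : CC σ τ ≤ Y)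
    (hnorm : ∀ h ∈ Y, ∀ n ∈ N, h * n * h⁻¹ ∈ N) {n₀ c : LinearMap.GeneralLinearGroup k M} (hn₀ : n₀ ∈ N)
    (hn₀C : n₀ ∈ CC σ τ) (hc : c ∈ CC σ τ) (hne : n₀ * c ≠ c * n₀) : CC σ τ ≤ N := by
  have Q := quasi_CC h2 h3 hσ hτ hN
  have hNorm : (N.subgroupOf (CC σ τ)).Normal := by
    refine ⟨fun n hn g => ?_⟩
    rw [Subgroup.mem_subgroupOf] at hn ⊢
    exact hnorm _ (hC g.2) _ hn
  rcases Cfsg.Agent.Lib.Components.Basic.quasisimple_subnormal Q _ hNorm.isSubnormal with h0 | h0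
  · intro x hx
    have : (⟨x, hx⟩ : CC σ τ) ∈ N.subgroupOf (CC σ τ) := by rw [h0]; trivial
    exact this
  · exfalso
    have h1 : (⟨n₀, hn₀C⟩ : CC σ τ) ∈ N.subgroupOf (CC σ τ) := hn₀
    have h4 := Subgroup.mem_center_iff.1 (h0 h1) ⟨c, hc⟩
    exact hne (congrArg Subtype.val h4).symm

omit [FiniteDimensional k M] in
lemma mem_sF_self (σ : LinearMap.GeneralLinearGroup k M) : σ ∈ Cfsg.scalarFamily σ := ⟨1, by simp⟩

omit [FiniteDimensional k M] in
lemma left_mem_CC (σ τ : LinearMap.GeneralLinearGroup k M) : σ ∈ CC σ τ :=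
  Subgroup.subset_closure (Or.inl (mem_sF_self σ))

omit [FiniteDimensional k M] in
lemma right_mem_CC (σ τ : LinearMap.GeneralLinearGroup k M) : τ ∈ CC σ τ :=
  Subgroup.subset_closure (Or.inr (mem_sF_self τ))

/-- The scalar family lies in the root group. -/
lemma sF_sub_E {σ : LinearMap.GeneralLinearGroup k M} (hσ : σ ∈ Cfsg.minimalQuadraticElements G) :
    Cfsg.scalarFamily σ ⊆ (Cfsg.sameActionSubgroup G σ : Set (LinearMap.GeneralLinearGroup k M)) := by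
  rintro u ⟨c, hc⟩
  show u ∈ Cfsg.sameActionSubgroup G σ
  rw [mem_E_iff hσ]
  have : NN u = c • NN σ := by
    simp only [NN]
    rw [hc, add_sub_cancel_left]
  rw [this]
  exact Submodule.smul_mem _ c (self_mem_LL _)

lemma CC_le {σ τ : LinearMap.GeneralLinearGroup k M} (hσ : σ ∈ Cfsg.minimalQuadraticElements G)
    (hτ : τ ∈ Cfsg.minimalQuadraticElements G) {Y : Subgroup (LinearMap.GeneralLinearGroup k M)}
    (h1 : Cfsg.sameActionSubgroup G σ ≤ Y) (h4 : Cfsg.sameActionSubgroup G τ ≤ Y) : CC σ τ ≤ Y := by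
  rw [Subgroup.closure_le]
  rintro u (hu | hu)
  · exact h1 (sF_sub_E hσ hu)
  · exact h4 (sF_sub_E hτ hu)

lemma not_comm_of_NTy {σ τ : LinearMap.GeneralLinearGroup k M} (hσ : σ ∈ Cfsg.minimalQuadraticElements G)
    (hN : NTy (NN σ) (NN τ)) : σ * τ ≠ τ * σ := by
  intro h0
  have hx := minLog_of_mem hσ
  have hz := zz_of_mul_comm h0
  apply hN.not_zero hx.ne
  have e1 : NN σ * NN τ = NN τ * NN σ := sub_eq_zero.1 hz
  rw [e1, mul_assoc]
  have := hx.sq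
  simp only [NN] at this ⊢
  rw [this, mul_zero]

/-- The elements of a root group are generators. -/
lemma root_of_mem {σ b : LinearMap.GeneralLinearGroup k M} (hσ : σ ∈ Cfsg.minimalQuadraticElements G)
    (hb : b ∈ Cfsg.sameActionSubgroup G σ) (hb1 : b ≠ 1) :
    b ∈ Cfsg.minimalQuadraticElements G ∧ Cfsg.sameActionSubgroup G b = Cfsg.sameActionSubgroup G σ :=
  ⟨(class_of_mem hσ hb hb1).1, E_eq_of_class (class_of_mem hσ hb hb1)⟩

/-- The component groups are generated by their root elements. -/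
lemma HH_le_of_roots {L : Set (Subgroup (LinearMap.GeneralLinearGroup k M))}
    (hL : L ⊆ Cfsg.quadraticRootSubgroups G) {X : Subgroup (LinearMap.GeneralLinearGroup k M)}
    (h : ∀ σ, σ ∈ Cfsg.minimalQuadraticElements G → Cfsg.sameActionSubgroup G σ ∈ L → σ ∈ X) : HH L ≤ X := by
  refine iSup₂_le (fun B hB b hb => ?_)
  by_cases hb1 : b = 1
  · rw [hb1]; exact X.one_mem
  obtain ⟨σ, hσ, rfl⟩ := hL hB
  obtain ⟨h1, h4⟩ := root_of_mem hσ hb hb1
  exact h b h1 (h4.symm ▸ hB)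

/-- **The normal subgroups of a component group.** -/
theorem normal_dich (hG : Cfsg.IsQuadraticPair G) (h2 : (2 : k) ≠ 0) (h3 : Nat.card k ≠ 3)
    {A₀ : Subgroup (LinearMap.GeneralLinearGroup k M)} (hA₀ : A₀ ∈ Cfsg.quadraticRootSubgroups G)
    {N : Subgroup (LinearMap.GeneralLinearGroup k M)} (hNH : N ≤ HH (cmp G A₀))
    (hnorm : ∀ h ∈ HH (cmp G A₀), ∀ n ∈ N, h * n * h⁻¹ ∈ N) :
    (∀ n ∈ N, ∀ h ∈ HH (cmp G A₀), n * h = h * n) ∨ HH (cmp G A₀) ≤ N := by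
  obtain ⟨L, hLd⟩ : ∃ L, L = cmp G A₀ := ⟨_, rfl⟩
  rw [← hLd] at hNH hnorm ⊢
  have hHG : HH L ≤ G := HH_le_G (by rw [hLd]; exact cmp_sub)
  -- neighbours stay in the component
  have hnb : ∀ σ τ : LinearMap.GeneralLinearGroup k M, σ ∈ Cfsg.minimalQuadraticElements G →
      τ ∈ Cfsg.minimalQuadraticElements G → Cfsg.sameActionSubgroup G σ ∈ L → NTy (NN σ) (NN τ) →
      Cfsg.sameActionSubgroup G τ ∈ L := by
    intro σ τ hσ hτ hL hN
    rw [hLd] at hL ⊢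
    exact ⟨⟨τ, hτ, rfl⟩, hL.2.tail (adj_of_NTy' h2 h3 hσ hτ hN)⟩
  have hCH : ∀ σ τ : LinearMap.GeneralLinearGroup k M, σ ∈ Cfsg.minimalQuadraticElements G →
      τ ∈ Cfsg.minimalQuadraticElements G → Cfsg.sameActionSubgroup G σ ∈ L → Cfsg.sameActionSubgroup G τ ∈ L →
      CC σ τ ≤ HH L := fun σ τ hσ hτ h1 h4 => CC_le hσ hτ (le_HH h1) (le_HH h4)
  -- (a)
  have ha : ∀ σ τ : LinearMap.GeneralLinearGroup k M, σ ∈ Cfsg.minimalQuadraticElements G →
      τ ∈ Cfsg.minimalQuadraticElements G → Cfsg.sameActionSubgroup G σ ∈ L → NTy (NN σ) (NN τ) → σ ∈ N → τ ∈ N := by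
    intro σ τ hσ hτ hL hN hsN
    have hτL := hnb σ τ hσ hτ hL hN
    exact lemT h2 h3 hσ hτ hN (hCH σ τ hσ hτ hL hτL) hnorm hsN (left_mem_CC σ τ) (right_mem_CC σ τ)
      (not_comm_of_NTy hσ hN) (right_mem_CC σ τ)
  -- (b)
  have hb : ∀ σ : LinearMap.GeneralLinearGroup k M, σ ∈ Cfsg.minimalQuadraticElements G →
      Cfsg.sameActionSubgroup G σ ∈ L → σ ∈ N → Cfsg.sameActionSubgroup G σ ≤ N := by
    intro σ hσ hL hsN b hb
    by_cases hb1 : b = 1
    · rw [hb1]; exact N.one_mem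
    obtain ⟨hbm, hbE⟩ := root_of_mem hσ hb hb1
    obtain ⟨-, hbs⟩ := mem_E_log hσ hb hb1
    obtain ⟨g, hg, hNg⟩ := exists_conj_NTy hG h2 h3 hσ
    have hτ := conj_mem_min hσ hg
    have hNτ : NTy (NN σ) (NN (g * σ * g⁻¹)) := by
      have e := NN_conj g σ
      simp only [NN] at e hNg ⊢
      rw [e]
      exact hNg
    have hτN := ha σ _ hσ hτ hL hNτ hsN
    have hτL := hnb σ _ hσ hτ hL hNτ
    exact ha _ b hτ hbm hτL (hNτ.symm.congr (Same.refl _) hbs) hτN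
  -- (c)
  by_cases hroot : ∃ σ, σ ∈ Cfsg.minimalQuadraticElements G ∧ Cfsg.sameActionSubgroup G σ ∈ L ∧ σ ∈ N
  · right
    obtain ⟨σ₀, hσ₀, hL₀, hN₀⟩ := hroot
    have hcmp : cmp G (Cfsg.sameActionSubgroup G σ₀) = L := by
      rw [hLd]
      rw [hLd] at hL₀
      exact cmp_eq_of_mem hL₀
    have key : ∀ B, Relation.ReflTransGen (Adj G) (Cfsg.sameActionSubgroup G σ₀) B → B ≤ N := by
      intro B hB
      induction hB with
      | refl => exact hb σ₀ hσ₀ hL₀ hN₀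
      | @tail C D hC hCD ih =>
        obtain ⟨σ, hσ, rfl⟩ := id hCD.1
        obtain ⟨τ, hτ, rfl⟩ := id hCD.2.1
        have hσL : Cfsg.sameActionSubgroup G σ ∈ L := by
          rw [← hcmp]
          exact ⟨hCD.1, hC⟩
        have hN := NTy_of_rankOne h2 h3 hσ hτ hCD.2.2
        have hτN := ha σ τ hσ hτ hσL hN (ih (E_self hσ))
        exact hb τ hτ (hnb σ τ hσ hτ hσL hN) hτN
    refine iSup₂_le (fun B hB => key B ?_)
    rw [← hcmp] at hB
    exact hB.2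
  -- (d)
  left
  push Not at hroot
  have hcomm : ∀ σ, σ ∈ Cfsg.minimalQuadraticElements G → Cfsg.sameActionSubgroup G σ ∈ L → ∀ n ∈ N,
      σ * (n * σ * n⁻¹) = (n * σ * n⁻¹) * σ := by
    intro σ hσ hL n hn
    have hnG : n ∈ G := hHG (hNH hn)
    have hτ := conj_mem_min hσ hnG
    have hτL : Cfsg.sameActionSubgroup G (n * σ * n⁻¹) ∈ L := by
      have h4 := conj_mem_cmp hG h2 h3 hnG _ (show Cfsg.sameActionSubgroup G σ ∈ Cfsg.quadraticRootSubgroups G from ⟨σ, hσ, rfl⟩)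
      rw [conjBy_E hσ hnG] at h4
      rw [hLd] at hL ⊢
      rwa [cmp_eq_of_mem hL] at h4
    have hσH : σ ∈ HH L := le_HH hL (E_self hσ)
    have hτH : n * σ * n⁻¹ ∈ HH L := le_HH hτL (E_self hτ)
    have hn₀ : σ * (n * σ * n⁻¹)⁻¹ ∈ N := by
      have e : σ * (n * σ * n⁻¹)⁻¹ = (σ * n * σ⁻¹) * n⁻¹ := by group
      rw [e]
      exact N.mul_mem (hnorm σ hσH n hn) (N.inv_mem hn)
    obtain ⟨τ, hτd⟩ : ∃ τ, τ = n * σ * n⁻¹ := ⟨_, rfl⟩
    rw [← hτd] at hτ hτL hτH hn₀ ⊢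
    by_cases hN : NTy (NN σ) (NN τ)
    · exfalso
      have hne : (σ * τ⁻¹) * τ ≠ τ * (σ * τ⁻¹) := by
        intro h0
        apply not_comm_of_NTy hσ hN
        have h4 : σ = τ * (σ * τ⁻¹) := by
          rw [← h0]
          group
        calc σ * τ = (τ * (σ * τ⁻¹)) * τ := by rw [← h4]
          _ = τ * σ := by group
      have hle := lemT h2 h3 hσ hτ hN (hCH σ τ hσ hτ hL hτL) hnorm hn₀
        ((CC σ τ).mul_mem (left_mem_CC σ τ) ((CC σ τ).inv_mem (right_mem_CC σ τ))) (right_mem_CC σ τ) hne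
      exact hroot σ hσ hL (hle (left_mem_CC σ τ))
    · have hx := minLog_of_mem hσ
      have hy := minLog_of_mem hτ
      have P : UPair G (NN σ) (NN τ) := upair_of_not h2 h3 hN hx hy (Same.refl _) (Same.refl _)
      by_cases hz : zz (NN σ) (NN τ) = 0
      · exact mul_comm_of_zz hz
      exfalso
      have hdN : σ * τ * σ⁻¹ * τ⁻¹ ∈ N := by
        have e : σ * τ * σ⁻¹ * τ⁻¹ = (σ * τ⁻¹) * (τ * (σ * τ⁻¹)⁻¹ * τ⁻¹) := by group
        rw [e]
        exact N.mul_mem hn₀ (hnorm τ hτH _ (N.inv_mem hn₀))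
      have hNd : NN (σ * τ * σ⁻¹ * τ⁻¹) = zz (NN σ) (NN τ) := comm_val'' P.hx.sq P.hy.sq P.xyx P.yxy
      have hzm := P.minZ hz
      rw [← hNd] at hzm
      have hdm := mem_quadratic_of_log hzm
      obtain ⟨f, hf, h4, h5, h6⟩ := exists_common hG h2 h3 P hz
      rw [← hNd] at h6
      have hfm := mem_of_minLog hf
      have h7 : NTy (NN σ) (NN (oa f hf.sq 1)) := by rwa [NN_oa]
      have h8 : NTy (NN (σ * τ * σ⁻¹ * τ⁻¹)) (NN (oa f hf.sq 1)) := by rwa [NN_oa]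
      have hfL := hnb σ _ hσ hfm hL h7
      have hdL := hnb _ _ hfm hdm hfL h8.symm
      exact hroot _ hdm hdL hdN
  have hirr : SumIrr N := by
    refine SumIrr.of_normal hNH hnorm (SumIrr.of_normal (Y := G) hHG ?_ (sumIrr_of_irr hG.1))
    intro h hh n hn
    rw [hLd] at hn ⊢
    exact conj_HH hG h2 h3 hh hn
  have main : ∀ σ, σ ∈ Cfsg.minimalQuadraticElements G → Cfsg.sameActionSubgroup G σ ∈ L → ∀ n ∈ N, n * σ = σ * n := by
    intro σ hσ hL n hn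
    have hσH : σ ∈ HH L := le_HH hL (E_self hσ)
    have hcc : ∀ n₁ ∈ N, ∀ n₂ ∈ N, Commute (n₁ * σ * n₁⁻¹) (n₂ * σ * n₂⁻¹) := by
      intro n₁ h₁ n₂ h₂
      have h4 := hcomm σ hσ hL (n₁⁻¹ * n₂) (N.mul_mem (N.inv_mem h₁) h₂)
      show (n₁ * σ * n₁⁻¹) * (n₂ * σ * n₂⁻¹) = (n₂ * σ * n₂⁻¹) * (n₁ * σ * n₁⁻¹)
      calc (n₁ * σ * n₁⁻¹) * (n₂ * σ * n₂⁻¹)
          = n₁ * (σ * (n₁⁻¹ * n₂ * σ * (n₁⁻¹ * n₂)⁻¹)) * n₁⁻¹ := by group
        _ = n₁ * ((n₁⁻¹ * n₂ * σ * (n₁⁻¹ * n₂)⁻¹) * σ) * n₁⁻¹ := by rw [h4]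
        _ = _ := by group
    let T : Set (M →ₗ[k] M) := {t | ∃ n₁ ∈ N, ∃ n₂ ∈ N, t = NN ((n₁ * σ * n₁⁻¹) * (n₂ * σ * n₂⁻¹)⁻¹)}
    have hx := minLog_of_mem hσ
    have hT0 : ∀ t ∈ T, t = 0 := by
      refine family_zero hirr T ?_ ?_ ?_ ?_
      · rintro _ ⟨a₁, ha₁, a₂, ha₂, rfl⟩ _ ⟨b₁, hb₁, b₂, hb₂, rfl⟩
        refine sub_eq_zero.1 (zz_of_mul_comm ?_)
        have c1 := hcc a₁ ha₁ b₁ hb₁
        have c2 := hcc a₁ ha₁ b₂ hb₂
        have c3 := hcc a₂ ha₂ b₁ hb₁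
        have c4 := hcc a₂ ha₂ b₂ hb₂
        exact ((c1.mul_right c2.inv_right).mul_left (c3.inv_left.mul_right c4.inv_inv)).eq
      · rintro _ ⟨a₁, ha₁, a₂, ha₂, rfl⟩
        refine ⟨3, ?_⟩
        have hp := (minLog_cj hx (hHG (hNH ha₁))).sq
        have e1 := NN_conj a₁ σ
        obtain ⟨p, hpd⟩ : ∃ p, p = NN (a₁ * σ * a₁⁻¹) := ⟨_, rfl⟩
        have hqq : NN ((a₂ * σ * a₂⁻¹)⁻¹) * NN ((a₂ * σ * a₂⁻¹)⁻¹) = 0 := by
          have h4 : (a₂ * σ * a₂⁻¹)⁻¹ = a₂ * σ⁻¹ * a₂⁻¹ := by group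
          rw [h4, NN_conj, cj_mul]
          have h5 : NN σ⁻¹ * NN σ⁻¹ = 0 := by
            have hσs : NN σ * NN σ = 0 := hx.sq
            have h6 : σ⁻¹ = oa (NN σ) hσs (-1) := by
              rw [← oa_inv, ← eq_oa]
            rw [h6]
            simp only [NN, oa_val, add_sub_cancel_left, smul_mul_assoc, mul_smul_comm, neg_smul, one_smul, neg_mul,
              mul_neg, neg_neg]
            simp only [NN] at hσs
            rw [hσs]
          rw [h5]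
          simp [cj]
        have hpp : NN (a₁ * σ * a₁⁻¹) * NN (a₁ * σ * a₁⁻¹) = 0 := by
          rw [NN_conj, cj_mul]
          have hσs : NN σ * NN σ = 0 := hx.sq
          rw [hσs]
          simp [cj]
        have hcpq : NN (a₁ * σ * a₁⁻¹) * NN ((a₂ * σ * a₂⁻¹)⁻¹) = NN ((a₂ * σ * a₂⁻¹)⁻¹) * NN (a₁ * σ * a₁⁻¹) :=
          sub_eq_zero.1 (zz_of_mul_comm (hcc a₁ ha₁ a₂ ha₂).inv_right.eq)
        have e2 : NN ((a₁ * σ * a₁⁻¹) * (a₂ * σ * a₂⁻¹)⁻¹) = NN (a₁ * σ * a₁⁻¹) + NN ((a₂ * σ * a₂⁻¹)⁻¹) +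
            NN (a₁ * σ * a₁⁻¹) * NN ((a₂ * σ * a₂⁻¹)⁻¹) := by
          simp only [NN, Units.val_mul]
          noncomm_ring
        rw [e2]
        exact cube_zero hcpq hpp hqq
      · rintro m hm _ ⟨a₁, ha₁, a₂, ha₂, rfl⟩
        refine ⟨m * a₁, N.mul_mem hm ha₁, m * a₂, N.mul_mem hm ha₂, ?_⟩
        rw [← NN_conj]
        congr 1
        group
      · rintro _ ⟨a₁, ha₁, a₂, ha₂, rfl⟩ W hW w hw
        have hu : (a₁ * σ * a₁⁻¹) * (a₂ * σ * a₂⁻¹)⁻¹ ∈ N := by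
          have e : (a₁ * σ * a₁⁻¹) * (a₂ * σ * a₂⁻¹)⁻¹ = a₁ * (σ * (a₁⁻¹ * a₂) * σ⁻¹) * a₂⁻¹ := by group
          rw [e]
          exact N.mul_mem (N.mul_mem ha₁ (hnorm σ hσH _ (N.mul_mem (N.inv_mem ha₁) ha₂))) (N.inv_mem ha₂)
        exact W.sub_mem (hW _ hu w hw) hw
    have h4 := hT0 _ ⟨1, N.one_mem, n, hn, rfl⟩
    have h5 := NN_eq_zero h4
    have h6 : σ * (n * σ * n⁻¹)⁻¹ = 1 := by simpa using h5
    have h7 : σ = n * σ * n⁻¹ := mul_inv_eq_one.1 h6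
    calc n * σ = (n * σ * n⁻¹) * n := by group
      _ = σ * n := by rw [← h7]
  intro n hn h hh
  have hle : HH L ≤ Subgroup.centralizer ({n} : Set (LinearMap.GeneralLinearGroup k M)) := by
    apply HH_le_of_roots (G := G) (by rw [hLd]; exact cmp_sub)
    intro σ hσ hL
    rw [Subgroup.mem_centralizer_singleton_iff]
    exact (main σ hσ hL n hn).symm
  have := hle hh
  rw [Subgroup.mem_centralizer_singleton_iff] at this
  exact this.symm

/-- **The component groups are quasisimple.** -/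
theorem quasi_main (hG : Cfsg.IsQuadraticPair G) (h2 : (2 : k) ≠ 0) (h3 : Nat.card k ≠ 3)
    {A : Subgroup (LinearMap.GeneralLinearGroup k M)} (hA : A ∈ Cfsg.quadraticRootSubgroups G) :
    Cfsg.IsQuasisimple ↥(HH (cmp G A)) := by
  obtain ⟨σ₀, hσ₀, hA₀⟩ := id hA
  have hne : ∀ {σ : LinearMap.GeneralLinearGroup k M}, σ ∈ Cfsg.minimalQuadraticElements G →
      Cfsg.sameActionSubgroup G σ ∈ cmp G A → ∃ τ, τ ∈ Cfsg.minimalQuadraticElements G ∧ NTy (NN σ) (NN τ) ∧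
      Cfsg.sameActionSubgroup G τ ∈ cmp G A := by
    intro σ hσ hL
    obtain ⟨g, hg, hNg⟩ := exists_conj_NTy hG h2 h3 hσ
    have hτ := conj_mem_min hσ hg
    have hNτ : NTy (NN σ) (NN (g * σ * g⁻¹)) := by
      have e := NN_conj g σ
      simp only [NN] at e hNg ⊢
      rw [e]
      exact hNg
    exact ⟨_, hτ, hNτ, ⟨⟨_, hτ, rfl⟩, hL.2.tail (adj_of_NTy' h2 h3 hσ hτ hNτ)⟩⟩
  refine ⟨?_, ?_⟩
  · rw [Subgroup.isPerfect_iff]
    apply le_antisymm (Subgroup.commutator_le_self _)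
    apply HH_le_of_roots (G := G) cmp_sub
    intro σ hσ hL
    obtain ⟨τ, hτ, hN, hτL⟩ := hne hσ hL
    have Q := quasi_CC h2 h3 hσ hτ hN
    have hp := (Subgroup.isPerfect_iff (H := CC σ τ)).1 Q.1
    have hC := CC_le hσ hτ (le_HH hL) (le_HH hτL)
    have hm := left_mem_CC σ τ
    rw [← hp] at hm
    exact Subgroup.commutator_mono hC hC hm
  · apply simple_quot
    · intro h0
      have hL : Cfsg.sameActionSubgroup G σ₀ ∈ cmp G A := hA₀ ▸ mem_cmp_self hA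
      obtain ⟨τ, hτ, hN, hτL⟩ := hne hσ₀ hL
      apply not_comm_of_NTy hσ₀ hN
      have h4 : (⟨σ₀, le_HH hL (E_self hσ₀)⟩ : HH (cmp G A)) ∈ Subgroup.center ↥(HH (cmp G A)) := by
        rw [h0]; trivial
      have h5 := Subgroup.mem_center_iff.1 h4 ⟨τ, le_HH hτL (E_self hτ)⟩
      exact (congrArg Subtype.val h5).symm
    · intro N hN
      have hle : N.map (HH (cmp G A)).subtype ≤ HH (cmp G A) := by
        rintro _ ⟨n, _, rfl⟩
        exact n.2
      have hnorm : ∀ h ∈ HH (cmp G A), ∀ n ∈ N.map (HH (cmp G A)).subtype,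
          h * n * h⁻¹ ∈ N.map (HH (cmp G A)).subtype := by
        rintro h hh _ ⟨n, hn, rfl⟩
        exact ⟨⟨h, hh⟩ * n * ⟨h, hh⟩⁻¹, hN.conj_mem n hn _, rfl⟩
      rcases normal_dich hG h2 h3 hA hle hnorm with h0 | h0
      · left
        intro n hn
        rw [Subgroup.mem_center_iff]
        intro g
        exact (Subtype.ext (h0 n ⟨n, hn, rfl⟩ g g.2)).symm
      · right
        rw [eq_top_iff]
        intro g _
        obtain ⟨n, hn, hng⟩ := h0 g.2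
        have : n = g := Subtype.ext hng
        rwa [← this]

end Main

end Cfsg.Agent.Lib.QuadMain.Quasi
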