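import Cfsg.Agent.Lib.QuadMain.Parts
import Mathlib

/-!
# The radical part of a quadratic pair and the gluing of the two parts
-/

set_option autoImplicit false
set_option linter.unusedSectionVars false
set_option linter.unusedVariables false

namespace Cfsg.Agent.Lib.QuadMain.Rest

open Cfsg.Agent.Lib.Linalg.Quad.Dich Cfsg.Agent.Lib.Linalg.Quad.Root
  Cfsg.Agent.Lib.Linalg.Quad.Pair Cfsg.Agent.Lib.Linalg.Quad.NType Cfsg.Agent.Lib.Linalg.Quad.UType
  Cfsg.Agent.Lib.Linalg.Quad.Surj Cfsg.Agent.Lib.Linalg.Quad.RootSet Cfsg.Agent.Lib.Linalg.Quad.SL2Rep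
  Cfsg.Agent.Lib.Linalg.Quad.Class2
open Cfsg.Agent.Lib.QuadMain.Log Cfsg.Agent.Lib.QuadMain.Decomp Cfsg.Agent.Lib.QuadMain.Cocentral
  Cfsg.Agent.Lib.QuadMain.Conn Cfsg.Agent.Lib.QuadMain.Cliff Cfsg.Agent.Lib.QuadMain.Quasi

universe u

section Basic

variable {k : Type*} [Field k] {M : Type*} [AddCommGroup M] [Module k M]
  {G : Subgroup (LinearMap.GeneralLinearGroup k M)}

/-- The quadratic elements in the radical. -/
def Q0 (G : Subgroup (LinearMap.GeneralLinearGroup k M)) : Set (LinearMap.GeneralLinearGroup k M) :=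
  {σ | σ ∈ Cfsg.quadraticElements G ∧ Rad G (NN σ)}

/-- The radical part. -/
abbrev G1 (G : Subgroup (LinearMap.GeneralLinearGroup k M)) : Subgroup (LinearMap.GeneralLinearGroup k M) :=
  Subgroup.closure (Q0 G)

lemma G1_le : G1 G ≤ G := by
  rw [Subgroup.closure_le]
  intro σ hσ
  exact hσ.1.1

lemma mem_Q_of_log {g : LinearMap.GeneralLinearGroup k M} (h : LogQ G (NN g)) : g ∈ Cfsg.quadraticElements G := by
  have := mem_of_logQ h
  rwa [← eq_oa g h.sq] at this

lemma oa_mem_Q0 {x : M →ₗ[k] M} (hx : LogQ G x) (hr : Rad G x) : oa x hx.sq 1 ∈ Q0 G := by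
  refine ⟨mem_of_logQ hx, ?_⟩
  rwa [NN_oa]

lemma oa_mem_G1 {x : M →ₗ[k] M} (hx : LogQ G x) (hr : Rad G x) (c : k) : oa x hx.sq c ∈ G1 G := by
  by_cases hc : c = 0
  · have : oa x hx.sq c = 1 := by
      apply Units.ext
      simp [hc]
    rw [this]
    exact Subgroup.one_mem _
  · have hy : LogQ G (c • x) := (LogZ.smul (LogQ.toLogZ hx) c).toLogQ (smul_ne_zero hc hx.ne)
    have := oa_mem_Q0 hy (hr.smul c)
    have e : oa (c • x) hy.sq 1 = oa x hx.sq c := by
      apply Units.ext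
      simp
    rw [e] at this
    exact Subgroup.subset_closure this

lemma stable_of_conj {Γ : Type*} [Group Γ] {X K : Subgroup Γ} (h : ∀ g ∈ K, ∀ z ∈ X, g * z * g⁻¹ ∈ X) {g : Γ}
    (hg : g ∈ K) : Cfsg.conjBy X g = X := by
  apply le_antisymm
  · rintro _ ⟨z, hz, rfl⟩
    exact h g hg z hz
  · intro z hz
    refine ⟨g⁻¹ * z * g⁻¹⁻¹, h _ (K.inv_mem hg) z hz, ?_⟩
    simp only [MulEquiv.coe_toMonoidHom, MulAut.conj_apply]
    group

lemma mem_of_conjBy {Γ : Type*} [Group Γ] {X : Subgroup Γ} {g z : Γ} (h : Cfsg.conjBy X g = X) (hz : z ∈ X) :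
    g * z * g⁻¹ ∈ X := by
  rw [← h]
  exact ⟨z, hz, rfl⟩

end Basic

section Main

variable {k : Type u} [Field k] {M : Type*} [AddCommGroup M] [Module k M] [FiniteDimensional k M]
  {G : Subgroup (LinearMap.GeneralLinearGroup k M)}

lemma G1_comm (hG : Cfsg.IsQuadraticPair G) (h2 : (2 : k) ≠ 0) (h3 : Nat.card k ≠ 3)
    {g a : LinearMap.GeneralLinearGroup k M} (hg : g ∈ G1 G) (ha : a ∈ G0 G) : g * a = a * g := by
  have hle : G1 G ≤ Subgroup.centralizer ((G0 G : Subgroup _) : Set (LinearMap.GeneralLinearGroup k M)) := by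
    rw [Subgroup.closure_le]
    intro σ hσ
    have hl := logQ_of_mem hσ.1
    have := oa_centralizes hG h2 h3 (LogQ.toLogZ hl) hσ.2
    rwa [← eq_oa σ (LogQ.toLogZ hl).sq] at this
  exact (Subgroup.mem_centralizer_iff.1 (hle hg) a ha).symm

lemma G1_conj {g h : LinearMap.GeneralLinearGroup k M} (hg : g ∈ G) (hh : h ∈ G1 G) : g * h * g⁻¹ ∈ G1 G := by
  have hle : G1 G ≤ (G1 G).comap (MulAut.conj g).toMonoidHom := by
    rw [Subgroup.closure_le]
    intro σ hσ
    show g * σ * g⁻¹ ∈ G1 G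
    apply Subgroup.subset_closure
    have hl := logQ_of_mem hσ.1
    have h0 : NN (g * σ * g⁻¹) = cj g (NN σ) := NN_conj g σ
    have hne : cj g (NN σ) ≠ 0 := by
      intro h0
      apply hl.ne
      have := cj_inv_cj g (NN σ)
      rw [h0] at this
      simpa [cj] using this.symm
    refine ⟨mem_Q_of_log ?_, ?_⟩
    · rw [h0]
      exact (LogZ.cj (LogQ.toLogZ hl) hg).toLogQ hne
    · rw [h0]
      exact Rad.cj hσ.2 hg
  exact hle hh

lemma G0_sup_G1 (hG : Cfsg.IsQuadraticPair G) (h2 : (2 : k) ≠ 0) (h3 : Nat.card k ≠ 3) : G0 G ⊔ G1 G = G := by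
  apply le_antisymm
  · exact sup_le G0_le G1_le
  · conv_lhs => rw [← hG.2]
    rw [Subgroup.closure_le]
    intro σ hσ
    have hl := logQ_of_mem hσ
    have hL := LogQ.toLogZ hl
    rcases claimD hG h2 h3 _ _ hL rfl with hr | ⟨A, hA, hm⟩
    · exact Subgroup.mem_sup_right (Subgroup.subset_closure ⟨hσ, hr⟩)
    · rw [← eq_oa σ hL.sq] at hm
      refine Subgroup.mem_sup_left ?_
      have hle : HH (cmp G A) ≤ G0 G := iSup₂_le (fun B hB => le_G0 hB.1)
      exact hle hm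

/-- A family of subgroups decomposing `G`. -/
structure Fam (G : Subgroup (LinearMap.GeneralLinearGroup k M)) (F : Set (Subgroup (LinearMap.GeneralLinearGroup k M))) : Prop where
  fin : F.Finite
  norm : ∀ X ∈ F, X ≤ G ∧ ∀ g ∈ G, Cfsg.conjBy X g = X
  comm : ∀ X ∈ F, ∀ Y ∈ F, X ≠ Y → ⁅X, Y⁆ = ⊥
  sup : (⨆ X ∈ F, X) = G
  gen : ∀ X ∈ F, Cfsg.IsQuasisimple ↥X ∧
    Subgroup.closure (Cfsg.quadraticElements G ∩ (X : Set (LinearMap.GeneralLinearGroup k M))) = X
  cover : Cfsg.quadraticElements G ⊆ ⋃ X ∈ F, (X : Set (LinearMap.GeneralLinearGroup k M))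

/-- A family of subgroups decomposing the radical part of `G`. -/
structure Part1 (G : Subgroup (LinearMap.GeneralLinearGroup k M)) (F : Set (Subgroup (LinearMap.GeneralLinearGroup k M))) : Prop where
  fin : F.Finite
  le : ∀ X ∈ F, X ≤ G1 G
  norm : ∀ X ∈ F, ∀ g ∈ G1 G, Cfsg.conjBy X g = X
  comm : ∀ X ∈ F, ∀ Y ∈ F, X ≠ Y → ⁅X, Y⁆ = ⊥
  sup : (⨆ X ∈ F, X) = G1 G
  gen : ∀ X ∈ F, Cfsg.IsQuasisimple ↥X ∧
    Subgroup.closure (Cfsg.quadraticElements G ∩ (X : Set (LinearMap.GeneralLinearGroup k M))) = X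
  cover : Q0 G ⊆ ⋃ X ∈ F, (X : Set (LinearMap.GeneralLinearGroup k M))

/-- **Gluing.** -/
theorem glue (hG : Cfsg.IsQuadraticPair G) (h2 : (2 : k) ≠ 0) (h3 : Nat.card k ≠ 3)
    {F : Set (Subgroup (LinearMap.GeneralLinearGroup k M))} (hF : Part1 G F) :
    Fam G ({X | ∃ A ∈ Cfsg.quadraticRootSubgroups G, X = HH (cmp G A)} ∪ F) := by
  have hHG0 : ∀ A, HH (cmp G A) ≤ G0 G := fun A => iSup₂_le (fun B hB => le_G0 hB.1)
  refine ⟨?_, ?_, ?_, ?_, ?_, ?_⟩
  · refine Set.Finite.union ?_ hF.fin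
    have := (comps_finite hG h2 h3).image (HH (k := k) (M := M))
    refine this.subset ?_
    rintro _ ⟨A, hA, rfl⟩
    exact ⟨_, ⟨A, hA, rfl⟩, rfl⟩
  · rintro X (⟨A, hA, rfl⟩ | hX)
    · refine ⟨HH_le_G cmp_sub, fun g hg => ?_⟩
      exact stable_of_conj (K := G) (fun g hg z hz => conj_HH hG h2 h3 hg hz) hg
    · refine ⟨(hF.le X hX).trans G1_le, fun g hg => ?_⟩
      have hle : G ≤ Subgroup.normalizer (X : Set (LinearMap.GeneralLinearGroup k M)) := by
        conv_lhs => rw [← G0_sup_G1 hG h2 h3]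
        refine sup_le (fun a ha => ?_) (fun a ha => ?_)
        · rw [Subgroup.mem_normalizer_iff]
          intro h
          have key : ∀ z ∈ X, a * z = z * a := fun z hz => (G1_comm hG h2 h3 (hF.le X hX hz) ha).symm
          constructor
          · intro hh
            rw [key h hh]
            simpa using hh
          · intro hh
            have h5 := key _ hh
            have h6 : h = a * h * a⁻¹ := by
              apply mul_left_cancel (a := a)
              calc a * h = (a * h * a⁻¹) * a := by group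
                _ = a * (a * h * a⁻¹) := h5.symm
            rw [h6]
            exact hh
        · rw [Subgroup.mem_normalizer_iff]
          intro h
          constructor
          · intro hh
            exact mem_of_conjBy (hF.norm X hX a ha) hh
          · intro hh
            have h5 := mem_of_conjBy (hF.norm X hX a⁻¹ (Subgroup.inv_mem _ ha)) hh
            have e : a⁻¹ * (a * h * a⁻¹) * a⁻¹⁻¹ = h := by group
            rwa [e] at h5
      apply le_antisymm
      · rintro _ ⟨z, hz, rfl⟩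
        exact (Subgroup.mem_normalizer_iff.1 (hle hg) z).1 hz
      · intro z hz
        refine ⟨g⁻¹ * z * g⁻¹⁻¹, (Subgroup.mem_normalizer_iff.1 (hle (G.inv_mem hg)) z).1 hz, ?_⟩
        simp only [MulEquiv.coe_toMonoidHom, MulAut.conj_apply]
        group
  · have hcross : ∀ (A : Subgroup (LinearMap.GeneralLinearGroup k M)), ∀ Y ∈ F, ⁅HH (cmp G A), Y⁆ = ⊥ := by
      intro A Y hY
      apply commutator_bot_of_comm
      intro a ha b hb
      exact (G1_comm hG h2 h3 (hF.le Y hY hb) (hHG0 A ha)).symm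
    rintro X (⟨A, hA, rfl⟩ | hX) Y (⟨B, hB, rfl⟩ | hY) hne
    · apply commutator_bot_of_comm
      apply comm_HH hG h2 h3
      intro he
      apply hne
      rw [he]
    · exact hcross A Y hY
    · rw [Subgroup.commutator_comm]
      exact hcross B X hX
    · exact hF.comm X hX Y hY hne
  · apply le_antisymm
    · refine iSup₂_le ?_
      rintro X (⟨A, hA, rfl⟩ | hX)
      · exact HH_le_G cmp_sub
      · exact (hF.le X hX).trans G1_le
    · conv_lhs => rw [← G0_sup_G1 hG h2 h3]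
      refine sup_le ?_ ?_
      · refine iSup₂_le (fun B hB => ?_)
        exact (le_HH (mem_cmp_self hB)).trans
          (le_iSup₂_of_le (f := fun (X : Subgroup (LinearMap.GeneralLinearGroup k M)) (_ : X ∈ _) => X) _ (Or.inl ⟨B, hB, rfl⟩) le_rfl)
      · rw [← hF.sup]
        refine iSup₂_le (fun Y hY => ?_)
        exact le_iSup₂_of_le (f := fun (X : Subgroup (LinearMap.GeneralLinearGroup k M)) (_ : X ∈ _) => X) _ (Or.inr hY) le_rfl
  · rintro X (⟨A, hA, rfl⟩ | hX)
    · refine ⟨quasi_main hG h2 h3 hA, le_antisymm ?_ ?_⟩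
      · rw [Subgroup.closure_le]
        exact Set.inter_subset_right
      · apply HH_le_of_roots (G := G) cmp_sub
        intro σ hσ hL
        exact Subgroup.subset_closure ⟨hσ.1, le_HH hL (E_self hσ)⟩
    · exact hF.gen X hX
  · intro σ hσ
    have hl := logQ_of_mem hσ
    have hL := LogQ.toLogZ hl
    simp only [Set.mem_iUnion, SetLike.mem_coe]
    rcases claimD hG h2 h3 _ _ hL rfl with hr | ⟨A, hA, hm⟩
    · have h4 := hF.cover (⟨hσ, hr⟩ : σ ∈ Q0 G)
      simp only [Set.mem_iUnion, SetLike.mem_coe] at h4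
      obtain ⟨X, hX, hm⟩ := h4
      exact ⟨X, Or.inr hX, hm⟩
    · rw [← eq_oa σ hL.sq] at hm
      exact ⟨_, Or.inl ⟨A, hA, rfl⟩, hm⟩

/-- The conclusion for a family. -/
theorem conclusion_of_fam {F : Set (Subgroup (LinearMap.GeneralLinearGroup k M))} (hF : Fam G F) :
    ∃ (s : ℕ) (Gi : Fin s → Subgroup (LinearMap.GeneralLinearGroup k M)),
      (∀ i, Gi i ≤ G ∧ ∀ g ∈ G, Cfsg.conjBy (Gi i) g = Gi i) ∧ (∀ i j, i ≠ j → ⁅Gi i, Gi j⁆ = ⊥) ∧ (⨆ i, Gi i) = G ∧
      (∀ i, Cfsg.IsQuasisimple ↥(Gi i) ∧ Subgroup.closure (Cfsg.quadraticElements G ∩ (Gi i : Set (LinearMap.GeneralLinearGroup k M))) = Gi i) ∧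
      Cfsg.quadraticElements G ⊆ ⋃ i, (Gi i : Set (LinearMap.GeneralLinearGroup k M)) := by
  classical
  haveI := hF.fin.fintype
  obtain ⟨s, Gi, hmem, hsurj, hinj⟩ : ∃ (s : ℕ) (Gi : Fin s → Subgroup (LinearMap.GeneralLinearGroup k M)),
      (∀ i, Gi i ∈ F) ∧ (∀ X ∈ F, ∃ i, Gi i = X) ∧ Function.Injective Gi := by
    let e := (Fintype.equivFin F).symm
    refine ⟨_, fun i => (e i).1, fun i => (e i).2, fun X hX => ⟨e.symm ⟨X, hX⟩, ?_⟩, ?_⟩
    · simp only [Equiv.apply_symm_apply]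
    · intro i j hij
      exact e.injective (Subtype.ext hij)
  refine ⟨s, Gi, fun i => hF.norm _ (hmem i), fun i j hij => hF.comm _ (hmem i) _ (hmem j) (fun h => hij (hinj h)), ?_,
    fun i => hF.gen _ (hmem i), ?_⟩
  · apply le_antisymm
    · exact iSup_le (fun i => (hF.norm _ (hmem i)).1)
    · rw [← hF.sup]
      refine iSup₂_le (fun X hX => ?_)
      obtain ⟨i, rfl⟩ := hsurj X hX
      exact le_iSup Gi i
  · intro σ hσ
    have h4 := hF.cover hσ
    simp only [Set.mem_iUnion, SetLike.mem_coe] at h4 ⊢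
    obtain ⟨X, hX, hm⟩ := h4
    obtain ⟨i, rfl⟩ := hsurj X hX
    exact ⟨i, hm⟩

end Main

end Cfsg.Agent.Lib.QuadMain.Rest
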